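import Cfsg.Agent.Lib.US7.Def

/-!
# A bound for translation-free unitriangular groups of degree five
-/

set_option autoImplicit false

namespace Cfsg.Lib.US11

theorem aff_index {G X : Type*} [Group G] (H : Subgroup G) (φ : G → X)
    (h : ∀ g k, g⁻¹ * k ∈ H ↔ φ g = φ k) : H.index = Nat.card (Set.range φ) :=
  Nat.card_congr ((Quotient.congrRight fun g k => by
    rw [QuotientGroup.leftRel_apply, h]; rfl).trans (Setoid.quotientKerEquivRange φ))

theorem aff_pig {G X Y : Type*} [Finite Y] (φ : G → X) (ψ : X → Y) (h : Nat.card Y < Nat.card (Set.range φ)) :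
    ∃ g k, ψ (φ g) = ψ (φ k) ∧ φ g ≠ φ k := by
  by_contra! c
  refine h.not_ge (Nat.card_le_card_of_injective (fun x => ψ x.1) ?_)
  rintro ⟨_, g, rfl⟩ ⟨_, k, rfl⟩ e
  exact Subtype.ext (c g k e)

/-- `g` acts on the basis `c, y₁, y₂, y₃, w` by `c ↦ c`, `y₁ ↦ y₁ + s1 c`, `y₂ ↦ y₂ + l y₁ + s2 c`,
`y₃ ↦ y₃ + m y₂ + n y₁ + s3 c`, `w ↦ w + a3 y₃ + a2 y₂ + a1 y₁ + d c`; `A` is the kernel.
Proof.  `Q = |F|`, `T = {l = m = n = 0}` (subgroup, `A ≤ T`).  `|P : T| = |Λ|`, `Λ` the image of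
`(l,m,n)` in `F³`; `|T : A| = |𝒯|`, `𝒯` the image of `a = (a1,a2,a3)` on `T` (additive on `T`, as is
`s = (s1,s2,s3)`; two elements of `T` with the same `a` have the same `s`, and conversely, by `ha hs h0`).
For `t t' ∈ T`: `t t'` and `t' t` have the same `a`, so `(t' t)⁻¹ (t t') ∈ A`, and `d` gives
`s t ⬝ a t' = s t' ⬝ a t`.  For `g ∈ P`, `t ∈ T`, `t' = g t g⁻¹ ∈ T` (use `t' g = g t`): `a t' = L_g (a t)`,
`s t' L_g = s t`, `L_g` the unitriangular matrix of `(l,m,n)`.  Suppose `Q^5 ≤ |Λ| |𝒯|`.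
(1) `|Λ| = Q³` (all triples occur), `|𝒯| ≥ Q² > Q`: some `t ∈ T` has `(a2,a3) ≠ 0`.  If `a3 t ≠ 0` replace `t`
by `g t g⁻¹ t⁻¹`, `g = (0,1,0)`: so `a3 t = 0 ≠ a2 t`.  With `g = (1,0,0)`, `t₁ = g t g⁻¹ t⁻¹` has
`a = (a2 t, 0, 0) ≠ 0` and `s3 t₁ = 0`; `a t₁` is fixed by all `L_g`, so `s t₁ L_g = s t₁` for all `g`, giving
`s1 t₁ = s2 t₁ = 0`; so `t₁ ∈ A`, absurd.
(2) `|Λ| < Q³`: `|𝒯| > Q²`, so `𝒯` spans `F³` and contains a basis `a tᵢ`; `β : F³ →ₗ F³`, `β (a tᵢ) = s tᵢ`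
is symmetric and `β (a t) = s t` for all `t ∈ T` (test against the basis).  `ker β ⊓ 𝒯 = 0`, so
`|ker β| |𝒯| ≤ Q³`, `ker β = 0`.  If `2 = 0`: `t² ∈ A` gives `s t ⬝ a t = 0`, so in the basis the `3 × 3` Gram
matrix is symmetric with zero diagonal, its determinant `2 x y z` vanishes: absurd.  If `2 ≠ 0`:
`|Λ| ≥ Q² > Q` gives `g` with `l g = 0`, `y = (n g, m g, 0) ≠ 0`, `L_g v = v + v₃ y`; `b u v = β u ⬝ v` is
`L_g`-invariant (`u` in the basis); `b (L e₁) (L e₃)`, `b (L e₂) (L e₃)`, `b (L e₃) (L e₃)` give `β y = 0`. -/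
theorem aff {P F : Type*} [Group P] [Finite P] [Field F] [Finite F] (A : Subgroup P)
    (l m n a1 a2 a3 s1 s2 s3 d : P → F)
    (hl : ∀ g k, l (g * k) = l g + l k) (hm : ∀ g k, m (g * k) = m g + m k)
    (hn : ∀ g k, n (g * k) = n g + n k + l g * m k)
    (h3 : ∀ g k, a3 (g * k) = a3 g + a3 k) (h2 : ∀ g k, a2 (g * k) = a2 g + a2 k + m g * a3 k)
    (h1 : ∀ g k, a1 (g * k) = a1 g + a1 k + l g * a2 k + n g * a3 k)
    (k1 : ∀ g k, s1 (g * k) = s1 g + s1 k) (k2 : ∀ g k, s2 (g * k) = s2 g + s2 k + s1 g * l k)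
    (k3 : ∀ g k, s3 (g * k) = s3 g + s3 k + s1 g * n k + s2 g * m k)
    (hd : ∀ g k, d (g * k) = d g + d k + s1 g * a1 k + s2 g * a2 k + s3 g * a3 k)
    (ha : ∀ g, l g = 0 → m g = 0 → n g = 0 → a1 g = 0 → a2 g = 0 → a3 g = 0 → g ∈ A)
    (hs : ∀ g, l g = 0 → m g = 0 → n g = 0 → s1 g = 0 → s2 g = 0 → s3 g = 0 → g ∈ A)
    (h0 : ∀ g ∈ A, (l g = 0 ∧ m g = 0 ∧ n g = 0) ∧ (a1 g = 0 ∧ a2 g = 0 ∧ a3 g = 0) ∧
      (s1 g = 0 ∧ s2 g = 0 ∧ s3 g = 0) ∧ d g = 0) :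
    A.index < Nat.card F ^ 5 := by
  have z := h0 1 A.one_mem
  let T : Subgroup P :=
    { carrier := {g | l g = 0 ∧ m g = 0 ∧ n g = 0}
      one_mem' := z.1
      mul_mem' := fun {g k} hg hk => ⟨by rw [hl, hg.1, hk.1, add_zero], by rw [hm, hg.2.1, hk.2.1, add_zero],
        by rw [hn, hg.2.2, hk.2.2, hg.1, zero_mul, add_zero, add_zero]⟩
      inv_mem' := fun {g} hg => by
        have e1 := hl g g⁻¹
        have e2 := hm g g⁻¹
        have e3 := hn g g⁻¹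
        rw [mul_inv_cancel] at e1 e2 e3
        obtain ⟨p1, p2, p3⟩ := hg
        obtain ⟨⟨q1, q2, q3⟩, -⟩ := z
        exact ⟨by linear_combination q1 - e1 - p1, by linear_combination q2 - e2 - p2,
          by linear_combination q3 - e3 - p3 - m g⁻¹ * p1⟩ }
  have mT : ∀ {g}, g ∈ T ↔ l g = 0 ∧ m g = 0 ∧ n g = 0 := Iff.rfl
  have mul : ∀ t ∈ T, ∀ u ∈ T, (a1 (t * u) = a1 t + a1 u ∧ a2 (t * u) = a2 t + a2 u ∧ a3 (t * u) = a3 t + a3 u) ∧
      s1 (t * u) = s1 t + s1 u ∧ s2 (t * u) = s2 t + s2 u ∧ s3 (t * u) = s3 t + s3 u := fun t ht u hu => by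
    rw [h1, h2, h3, k1, k2, k3, ht.1, ht.2.1, ht.2.2, hu.1, hu.2.1, hu.2.2]; simp
  have div : ∀ t ∈ T, ∀ u ∈ T, (a1 (t⁻¹ * u) = a1 u - a1 t ∧ a2 (t⁻¹ * u) = a2 u - a2 t ∧
      a3 (t⁻¹ * u) = a3 u - a3 t) ∧ s1 (t⁻¹ * u) = s1 u - s1 t ∧ s2 (t⁻¹ * u) = s2 u - s2 t ∧
      s3 (t⁻¹ * u) = s3 u - s3 t := fun t ht u hu => by
    have := mul t ht _ (mul_mem (inv_mem ht) hu)
    rw [mul_inv_cancel_left] at this
    obtain ⟨⟨p1, p2, p3⟩, p4, p5, p6⟩ := this
    rw [p1, p2, p3, p4, p5, p6]; simp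
  have memA : ∀ t ∈ T, ∀ u ∈ T, a1 t = a1 u → a2 t = a2 u → a3 t = a3 u → t⁻¹ * u ∈ A :=
    fun t ht u hu e1 e2 e3 => by
      have k := mul_mem (inv_mem ht) hu
      obtain ⟨⟨p1, p2, p3⟩, -⟩ := div t ht u hu
      exact ha _ k.1 k.2.1 k.2.2 (by rw [p1, e1, sub_self]) (by rw [p2, e2, sub_self]) (by rw [p3, e3, sub_self])
  have sym : ∀ t ∈ T, ∀ u ∈ T, s1 t * a1 u + s2 t * a2 u + s3 t * a3 u = s1 u * a1 t + s2 u * a2 t + s3 u * a3 t :=
    fun t ht u hu => by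
      obtain ⟨⟨p1, p2, p3⟩, -⟩ := mul t ht u hu
      obtain ⟨⟨q1, q2, q3⟩, -⟩ := mul u hu t ht
      obtain ⟨-, ⟨r1, r2, r3⟩, -, r4⟩ := h0 _ (memA _ (mul_mem hu ht) _ (mul_mem ht hu) (by rw [p1, q1, add_comm])
        (by rw [p2, q2, add_comm]) (by rw [p3, q3, add_comm]))
      have e := hd (u * t) ((u * t)⁻¹ * (t * u))
      rw [mul_inv_cancel_left, r1, r2, r3, r4, hd, hd] at e
      linear_combination e
  have conj : ∀ g, ∀ t ∈ T, ∃ u ∈ T, (a1 u = a1 t + l g * a2 t + n g * a3 t ∧ a2 u = a2 t + m g * a3 t ∧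
      a3 u = a3 t) ∧ s1 u = s1 t ∧ s2 u + s1 u * l g = s2 t ∧ s3 u + s1 u * n g + s2 u * m g = s3 t := fun g t ht => by
    have e : g * t * g⁻¹ * g = g * t := inv_mul_cancel_right _ _
    generalize g * t * g⁻¹ = u at e
    obtain ⟨p1, p2, p3⟩ := ht
    have e1 := congrArg l e
    have e2 := congrArg m e
    have e3 := congrArg n e
    have e4 := congrArg a1 e
    have e5 := congrArg a2 e
    have e6 := congrArg a3 e
    have e7 := congrArg s1 e
    have e8 := congrArg s2 e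
    have e9 := congrArg s3 e
    simp only [hl, hm, hn, h1, h2, h3, k1, k2, k3, p1, p2, p3] at e1 e2 e3 e4 e5 e6 e7 e8 e9
    have q1 : l u = 0 := by linear_combination e1
    have q2 : m u = 0 := by linear_combination e2
    have q3 : n u = 0 := by linear_combination e3 - m g * q1
    exact ⟨u, ⟨q1, q2, q3⟩, ⟨by linear_combination e4 - a2 g * q1 - a3 g * q3, by linear_combination e5 - a3 g * q2,
      by linear_combination e6⟩, by linear_combination e7, by linear_combination e8, by linear_combination e9⟩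
  have dT : ∀ g k, g⁻¹ * k ∈ T ↔ (l g, m g, n g) = (l k, m k, n k) := fun g k => by
    have e1 := hl g (g⁻¹ * k)
    have e2 := hm g (g⁻¹ * k)
    have e3 := hn g (g⁻¹ * k)
    rw [mul_inv_cancel_left] at e1 e2 e3
    rw [mT, e1, e2, e3]
    simp only [Prod.mk.injEq, left_eq_add]
    refine ⟨fun ⟨p1, p2, p3⟩ => ⟨p1, p2, by rw [p2, p3]; simp⟩, fun ⟨p1, p2, p3⟩ => ⟨p1, p2, ?_⟩⟩
    linear_combination -p3 - l g * p2
  let av : T → F × F × F := fun t => (a1 t, a2 t, a3 t)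
  have iT := aff_index T _ dT
  have iA : A.relIndex T = Nat.card (Set.range av) := aff_index _ av fun t u => by
    rw [Subgroup.mem_subgroupOf]
    simp only [av, Prod.mk.injEq, Subgroup.coe_mul, Subgroup.coe_inv]
    refine ⟨fun e => ?_, fun e => memA _ t.2 _ u.2 e.1 e.2.1 e.2.2⟩
    obtain ⟨⟨p1, p2, p3⟩, -⟩ := div _ t.2 _ u.2
    obtain ⟨-, ⟨r1, r2, r3⟩, -⟩ := h0 _ e
    exact ⟨by linear_combination p1 - r1, by linear_combination p2 - r2, by linear_combination p3 - r3⟩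
  rw [← Subgroup.relIndex_mul_index (show A ≤ T from fun g hg => (h0 g hg).1), iA, iT]
  have Q1 : 1 < Nat.card F := Finite.one_lt_card
  have Q3 : Nat.card (F × F × F) = Nat.card F ^ 3 := by rw [Nat.card_prod, Nat.card_prod]; ring
  have b1 := Nat.card_le_card_of_injective _ (Subtype.val_injective (p := (· ∈ Set.range av)))
  have b2 := Nat.card_le_card_of_injective _
    (Subtype.val_injective (p := (· ∈ Set.range fun g => (l g, m g, n g))))
  rw [Q3] at b1 b2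
  by_contra! c
  have big : ∀ {x y : ℕ}, Nat.card F ^ 5 ≤ x * y → y ≤ Nat.card F ^ 3 → Nat.card F < x := fun {x y} h h' => by
    by_contra! k
    have : Nat.card F ^ 5 ≤ Nat.card F ^ 4 :=
      h.trans ((Nat.mul_le_mul k h').trans_eq (by ring))
    exact absurd (Nat.pow_lt_pow_right Q1 (by norm_num : 4 < 5)) this.not_gt
  by_cases su : Function.Surjective fun g => (l g, m g, n g)
  · obtain ⟨g, hg⟩ := su (0, 1, 0)
    obtain ⟨k, hk⟩ := su (1, 0, 0)
    simp only [Prod.mk.injEq] at hg hk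
    obtain ⟨t, ht, t3, t2⟩ : ∃ t ∈ T, a3 t = 0 ∧ a2 t ≠ 0 := by
      obtain ⟨t, u, e, ne⟩ := aff_pig av Prod.fst (big c b2)
      obtain ⟨⟨-, p2, p3⟩, -⟩ := div _ t.2 _ u.2
      have hv := mul_mem (inv_mem t.2) u.2
      by_cases e3 : a3 (t.1⁻¹ * u.1) = 0
      · exact ⟨_, hv, e3, fun e2 => ne (Prod.ext e (Prod.ext (by simp only [av]; linear_combination p2 - e2)
          (by simp only [av]; linear_combination p3 - e3)))⟩
      · obtain ⟨w, hw, ⟨-, q2, q3⟩, -⟩ := conj g _ hv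
        obtain ⟨⟨-, r2, r3⟩, -⟩ := div _ hv _ hw
        exact ⟨_, mul_mem (inv_mem hv) hw, by rw [r3, q3, sub_self], by rw [r2, q2, hg.2.1]; simpa using e3⟩
    obtain ⟨u, hu, ⟨q1, q2, q3⟩, -, -, q6⟩ := conj k t ht
    obtain ⟨⟨r1, r2, r3⟩, -, -, r6⟩ := div _ ht _ hu
    have hv := mul_mem (inv_mem ht) hu
    generalize t⁻¹ * u = v at hv r1 r2 r3 r6
    have v2 : a2 v = 0 := by rw [r2, q2, t3]; simp
    have v3 : a3 v = 0 := by rw [r3, q3, sub_self]
    have fx : ∀ g, s1 v * l g = 0 ∧ s1 v * n g + s2 v * m g = 0 := fun g => by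
      obtain ⟨w, hw, ⟨p1, p2, p3⟩, p4, p5, p6⟩ := conj g v hv
      obtain ⟨-, -, ⟨x1, x2, x3⟩, -⟩ := h0 _ (memA _ hv _ hw (by rw [p1, v2, v3]; simp) (by rw [p2, v3]; simp) p3.symm)
      obtain ⟨-, y1, y2, y3⟩ := div _ hv _ hw
      have w2 : s2 w = s2 v := by linear_combination x2 - y2
      have w3 : s3 w = s3 v := by linear_combination x3 - y3
      rw [p4, w2] at p5
      rw [p4, w2, w3] at p6
      exact ⟨by linear_combination p5, by linear_combination p6⟩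
    have f1 := (fx k).1
    have f2 := (fx g).2
    rw [hk.1, mul_one] at f1
    rw [hg.2.1, hg.2.2, mul_zero, zero_add, mul_one] at f2
    have := (h0 _ (hs v hv.1 hv.2.1 hv.2.2 f1 f2 (by rw [r6, ← q6, hk.2.1, hk.2.2]; simp))).2.1.1
    rw [r1, q1, hk.1, t3] at this
    exact t2 (by linear_combination this)
  have b3 : Nat.card F ^ 2 < Nat.card (Set.range av) := by
    by_contra! k
    have b4 : Nat.card (Set.range fun g => (l g, m g, n g)) < Nat.card F ^ 3 := by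
      rw [← Q3]
      simp only [Function.Surjective, not_forall] at su
      obtain ⟨x, hx⟩ := su
      exact Finite.card_subtype_lt (x := x) hx
    exact (c.trans_lt ((Nat.mul_lt_mul_of_le_of_lt k b4 (by positivity)).trans_eq (by ring))).false
  have key : ∀ x y w : F, (x, y, w) ≠ 0 → ∃ t ∈ T, ∃ c, c ≠ 0 ∧ a1 t = c * x ∧ a2 t = c * y ∧ a3 t = c * w :=
    fun x y w hv => by
      by_contra! k
      have := Nat.card_le_card_of_injective (fun p : Set.range av × F => p.1.1 + p.2 • (x, y, w)) (by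
        rintro ⟨⟨_, t, rfl⟩, c⟩ ⟨⟨_, u, rfl⟩, c'⟩ e
        obtain ⟨⟨p1, p2, p3⟩, -⟩ := div _ t.2 _ u.2
        simp only [av, Prod.smul_mk, Prod.mk_add_mk, smul_eq_mul, Prod.mk.injEq] at e
        obtain rfl : c = c' := by_contra fun ne => k _ (mul_mem (inv_mem t.2) u.2) (c - c') (sub_ne_zero.2 ne)
          (by linear_combination p1 - e.1) (by linear_combination p2 - e.2.1) (by linear_combination p3 - e.2.2)
        exact Prod.ext (Subtype.ext (by simpa [av] using e)) rfl)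
      rw [Q3, Nat.card_prod] at this
      exact (this.trans_lt ((pow_succ _ 2).trans_lt (Nat.mul_lt_mul_of_pos_right b3 (by omega)))).false
  obtain ⟨t1, m1, c1, n1, x1, y1, w1⟩ := key 1 0 0 (by simp)
  obtain ⟨t2, m2, c2, n2, x2, y2, w2⟩ := key 0 1 0 (by simp)
  obtain ⟨t3, m3, c3, n3, x3, y3, w3⟩ := key 0 0 1 (by simp)
  simp only [mul_one, mul_zero] at x1 y1 w1 x2 y2 w2 x3 y3 w3
  have inj : ∀ x y w : F, s1 t1 * x + s2 t1 * y + s3 t1 * w = 0 → s1 t2 * x + s2 t2 * y + s3 t2 * w = 0 →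
      s1 t3 * x + s2 t3 * y + s3 t3 * w = 0 → (x, y, w) = 0 := fun x y w e1 e2 e3 => by
    by_contra hv
    obtain ⟨t, ht, c, c0, p1, p2, p3⟩ := key x y w hv
    have q1 := sym t ht t1 m1
    have q2 := sym t ht t2 m2
    have q3 := sym t ht t3 m3
    rw [x1, y1, w1, p1, p2, p3] at q1
    rw [x2, y2, w2, p1, p2, p3] at q2
    rw [x3, y3, w3, p1, p2, p3] at q3
    obtain ⟨-, ⟨r1, r2, r3⟩, -⟩ := h0 _ (hs t ht.1 ht.2.1 ht.2.2
      (mul_right_cancel₀ n1 (by linear_combination q1 + c * e1))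
      (mul_right_cancel₀ n2 (by linear_combination q2 + c * e2))
      (mul_right_cancel₀ n3 (by linear_combination q3 + c * e3)))
    rw [p1] at r1
    rw [p2] at r2
    rw [p3] at r3
    exact hv (by simp_all)
  have s12 := sym t1 m1 t2 m2
  have s13 := sym t1 m1 t3 m3
  have s23 := sym t2 m2 t3 m3
  simp only [x1, y1, w1, x2, y2, w2, x3, y3, w3, mul_zero, add_zero, zero_add] at s12 s13 s23
  by_cases two : (2 : F) = 0
  · have sq : ∀ t ∈ T, s1 t * a1 t + s2 t * a2 t + s3 t * a3 t = 0 := fun t ht => by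
      obtain ⟨⟨p1, p2, p3⟩, -⟩ := mul t ht t ht
      have k := mul_mem ht ht
      have := (h0 _ (ha _ k.1 k.2.1 k.2.2 (by linear_combination p1 + a1 t * two)
        (by linear_combination p2 + a2 t * two) (by linear_combination p3 + a3 t * two))).2.2.2
      rw [hd] at this
      linear_combination this - d t * two
    have d1 := sq t1 m1
    have d2 := sq t2 m2
    have d3 := sq t3 m3
    simp only [x1, y1, w1, x2, y2, w2, x3, y3, w3, mul_zero, add_zero, zero_add, mul_eq_zero, n1, n2, n3,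
      or_false] at d1 d2 d3
    have := inj (c1 * c1 * s3 t2) (c1 * c2 * s3 t1) (c1 * c2 * s2 t1)
      (by rw [d1]; linear_combination (c1 * c2 * s2 t1 * s3 t1) * two)
      (by rw [d2]; linear_combination (c1 * s3 t2) * s12 + (c1 * c1 * s1 t2 * s3 t2) * two)
      (mul_left_cancel₀ n3 (by
        rw [d3]
        linear_combination (c1 * c3 * s3 t2) * -s13 - (c1 * s3 t1 * c3) * s23 + (c1 * c3 * c3 * s3 t2 * s3 t1) * two))
    simp only [Prod.mk_eq_zero, mul_eq_zero, n1, n2, false_or, or_self] at this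
    obtain ⟨e1, e2, e3⟩ := this
    have := inj 1 0 0 (by rw [d1]; simp) (by simpa [e3, n1] using s12.symm) (by simpa [e2, n1] using s13.symm)
    simp at this
  obtain ⟨g, k, e, ne⟩ := aff_pig (fun g => (l g, m g, n g)) Prod.fst (big (c.trans_eq (mul_comm _ _)) b1)
  have e1 := hl g (g⁻¹ * k)
  rw [mul_inv_cancel_left] at e1
  have l0 : l (g⁻¹ * k) = 0 := by simp only at e; linear_combination -e1 - e
  have nT := mt (dT g k).1 ne
  generalize g⁻¹ * k = y at l0 nT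
  obtain ⟨u, hu, ⟨p1, p2, p3⟩, p4, p5, p6⟩ := conj y t3 m3
  have q1 := sym u hu t1 m1
  have q2 := sym u hu t2 m2
  have q3 := sym u hu t3 m3
  rw [l0, mul_zero, add_zero] at p5
  rw [p4, p5] at p6
  simp only [p1, p2, p3, p4, p5, x1, y1, w1, x2, y2, w2, x3, y3, w3, mul_zero, add_zero, zero_add] at q1 q2 q3
  have := inj (n y) (m y) 0 (mul_left_cancel₀ n3 (by linear_combination -q1 - s13))
    (mul_left_cancel₀ n3 (by linear_combination -q2 - s23))
    (mul_left_cancel₀ (mul_ne_zero two n3) (by linear_combination c3 * p6 - q3))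
  simp only [Prod.mk_eq_zero] at this
  exact nT ⟨l0, this.2.1, this.1⟩

end Cfsg.Lib.US11
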