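import Cfsg.Agent.Lib.US11.Def

/-!
# The stabiliser `D = {g ∈ P | ψ (g w - w) = 0}` of `a`
-/

set_option autoImplicit false
set_option linter.unusedSectionVars false

namespace Cfsg.Lib.US11

open Module Cfsg.Lib.Unitary Cfsg.Lib.US7

variable {F V : Type*} [Field F] [AddCommGroup V] [Module F V] [Finite V] {σ : F →+* F} {q p m : ℕ}
  {B : V →ₛₗ[σ] V →ₗ[F] F} {P : Subgroup (V ≃ₗ[F] V)} {U : Submodule F V} {w e a : V} {ψ : V →ₗ[F] F}

theorem bt_ne (h : IsHerm σ B) : ∃ l : F, σ l ≠ l := by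
  by_contra! n
  exact h.ne_id (RingHom.ext n)

namespace St

variable (h : PL B q p m P) (f : Fr B m P U w) (s : St P U w e a ψ)
include h f s

/-- `g k w - w = (g w - w) + g (k w - w)` -/
theorem add {g k : V ≃ₗ[F] V} (hg : g ∈ P) (hk : k ∈ P) :
    ψ ((g * k) w - w) = ψ (g w - w) + ψ (k w - w) := by
  rw [← s.fp g hg _ (f.fix k hk), ← map_add, map_sub g, LinearEquiv.mul_apply]
  congr 1
  abel

theorem bt_inv {g : V ≃ₗ[F] V} (hg : g ∈ P) (e : ψ (g w - w) = 0) : ψ (g⁻¹ w - w) = 0 := by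
  have := s.add h f hg (inv_mem hg)
  rw [mul_inv_cancel, e, zero_add] at this
  rw [← this]; simp

/-- `D` is transitive on `x + (U ⊓ ker ψ)` for `x ∈ w + U`: `x = k w`, `x + v = k' w`, `g = k' k⁻¹` -/
theorem tr {x v : V} (hx : x - w ∈ U) (hv : v ∈ U) (v0 : ψ v = 0) :
    ∃ g ∈ P, ψ (g w - w) = 0 ∧ g x = x + v := by
  obtain ⟨k, hk, e⟩ := f.tr _ hx
  obtain ⟨k', hk', e'⟩ := f.tr _ (add_mem hx hv)
  rw [add_sub_cancel] at e
  have m := mul_mem hk' (inv_mem hk)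
  have := s.add h f m hk
  rw [inv_mul_cancel_right, e, e', add_sub_cancel_left, map_add, v0, add_zero] at this
  refine ⟨_, m, by linear_combination -this, ?_⟩
  rw [← e, LinearEquiv.mul_apply, show k⁻¹ (k w) = w from k.symm_apply_apply w, e', e]
  abel

theorem bt_kap {y : V} {c₀ : F} (hy : ∀ u ∈ U, B y u = c₀ * ψ u) {g : V ≃ₗ[F] V} (hg : g ∈ P) :
    ∃ κ : F, g y - y - κ • w ∈ U ∧ κ * B w w = -σ (c₀ * ψ (g w - w)) := by
  obtain ⟨κ, hκ⟩ := f.span (g y - y) (mem_perp.2 fun u hu => by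
    rw [map_sub, UG_apply_right (h.le hg), ← h.herm.symm y, ← h.herm.symm y u, hy u hu,
      hy _ (f.inv _ (inv_mem hg) u hu), s.fp _ (inv_mem hg) u hu, sub_self])
  refine ⟨κ, hκ, ?_⟩
  have := h.le hg w y
  have v := f.fix g hg
  rw [show g y = y + κ • w + (g y - y - κ • w) by abel, ← sub_add_cancel (g w) w] at this
  simp only [map_add, LinearMap.add_apply, map_smul, smul_eq_mul, mem_perp.1 f.wp _ v,
    h.herm.eq_zero_comm.1 (mem_perp.1 f.wp _ hκ), mem_perp.1 (f.iso hκ) _ v] at this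
  rw [← hy _ v, h.herm.symm]
  linear_combination this

/-- `B y u = c₀ ψ u` on `U`, `c₀ ≠ 0`; so `g y - y ∈ U^⊥`, `g y = y + κ g • w + u_g`, and `B (g y) (g w) = B y w`
gives `σ (κ g) B w w = - c₀ s g`, `s g = ψ (g w - w)`.  `β g = ψ u_g` has `β (g k) = β g + β k + κ k * s g`.
If `β = 0` on `D`, then `g k = r (k g)` with `r ∈ D` gives `κ k s g = κ g s k`; take `c₀ s g = 1`, `c₀ s k = λ` with
`σ λ ≠ λ` (`Fr.tr`, `St.ne`). -/
theorem beta {y : V} (h1 : ∀ u ∈ U, ψ u = 0 → B y u = 0) (h2 : y ∉ perp B U) :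
    ∃ g ∈ P, ψ (g w - w) = 0 ∧ g y - y ∈ U ∧ ψ (g y - y) ≠ 0 := by
  obtain ⟨u₁, m₁, e₁⟩ := s.ne
  have hy : ∀ u ∈ U, B y u = B y u₁ * ψ u := fun u hu => by
    have := h1 (u - ψ u • u₁) (sub_mem hu (U.smul_mem _ m₁)) (by simp [e₁])
    rw [map_sub, map_smul, smul_eq_mul] at this
    linear_combination this
  have c0 : B y u₁ ≠ 0 := fun e => h2 (mem_perp.2 fun u hu => h.herm.eq_zero_comm.1 (by rw [hy u hu, e, zero_mul]))
  by_contra! n
  obtain ⟨l, hl⟩ := bt_ne h.herm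
  obtain ⟨g, hg, eg⟩ := f.tr _ (U.smul_mem (B y u₁)⁻¹ m₁)
  obtain ⟨k, hk, ek⟩ := f.tr _ (U.smul_mem (l * (B y u₁)⁻¹) m₁)
  have sg : B y u₁ * ψ (g w - w) = 1 := by simp [eg, e₁, c0]
  have sk : B y u₁ * ψ (k w - w) = l := by simp [ek, e₁]; field_simp
  obtain ⟨α, a1, a2⟩ := s.bt_kap h f hy hg
  obtain ⟨β, b1, b2⟩ := s.bt_kap h f hy hk
  have m := mul_mem (mul_mem hg hk) (inv_mem (mul_mem hk hg))
  have s0 := s.add h f m (mul_mem hk hg)
  rw [inv_mul_cancel_right, s.add h f hg hk, s.add h f hk hg] at s0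
  have e0 : (g * k * (k * g)⁻¹) (k (g y)) = g (k y) := congrArg (fun x => g (k x)) ((k * g).symm_apply_apply y)
  generalize g * k * (k * g)⁻¹ = r at m s0 e0
  replace s0 : ψ (r w - w) = 0 := by linear_combination -s0
  obtain ⟨γ, r1, r2⟩ := s.bt_kap h f hy m
  rw [s0, mul_zero, map_zero, neg_zero] at r2
  rw [(mul_eq_zero.1 r2).resolve_right f.w0, zero_smul, sub_zero] at r1
  have r3 := n r m s0 r1
  have x : ∀ {g k : V ≃ₗ[F] V} {α β : F}, g (k y) = y + (α + β) • w +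
      (β • (g w - w) + g (k y - y - β • w) + (g y - y - α • w)) := by
    intro g k α β
    simp only [map_sub, map_smul]
    module
  have mU := add_mem (add_mem (U.smul_mem α (f.fix k hk)) (f.inv k hk _ a1)) b1
  have r4 := s.fp r m _ mU
  rw [x (α := β) (β := α), x (α := α) (β := β), map_add, map_add, map_smul] at e0
  have e2 := congrArg ψ (show r y - y + (β + α) • (r w - w) +
    r (α • (k w - w) + k (g y - y - α • w) + (k y - y - β • w)) = β • (g w - w) + g (k y - y - β • w) +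
    (g y - y - α • w) by linear_combination (norm := module) e0)
  rw [map_add, map_add, map_smul, r3, s0, r4, map_add, map_add, map_add, map_add, map_smul, map_smul,
    s.fp g hg _ b1, s.fp k hk _ a1, smul_eq_mul, smul_eq_mul, smul_eq_mul] at e2
  rw [sg, map_one] at a2
  rw [sk] at b2
  exact hl (by linear_combination b2 - l * a2 + B y u₁ * B w w * e2 + B w w * β * sg - B w w * α * sk)

/-- Else `I = U ⊓ U₂ < U`; as in `PL.uniq` some `x ∈ U^⊥ ⊓ U₂^⊥` is outside `I` (dimension), so outside `U`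
(`PL.mem` for `U₂`), and may be scaled into `w + U`.  For `g ∈ D`, `g x - x ∈ U ⊓ U₂^⊥ = I`; by `tr`,
`U ⊓ ker ψ ≤ I`.  Take `y ∈ U₂ \ U`; `y ∉ U^⊥` (`PL.mem`); `g` from `beta` has `g y - y ∈ I`, and `ψ = 0` on `I`
(`I ≠ U` contains the hyperplane `U ⊓ ker ψ` of `U`). -/
theorem same {U₂ : Submodule F V} (iso : U₂ ≤ perp B U₂) (rk : finrank F U₂ = m)
    (inv : ∀ g ∈ P, ψ (g w - w) = 0 → ∀ u ∈ U₂, g u ∈ U₂) : U₂ = U := by
  have := Module.Finite.of_finite (R := F) (M := V)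
  by_contra n
  have d := h.herm.finrank_add_finrank_perp (U ⊔ U₂)
  have d' := Submodule.finrank_sup_add_finrank_inf_eq U U₂
  obtain ⟨x, x1, x2⟩ : ∃ x ∈ perp B (U ⊔ U₂), x ∉ U ⊓ U₂ := SetLike.not_le_iff_exists.1 fun l => by
    have := Submodule.finrank_mono l
    have := h.rank
    have := f.rank
    omega
  rw [perp_sup] at x1
  obtain ⟨c, hc⟩ := f.span x x1.1
  have c0 : c ≠ 0 := by
    rintro rfl
    rw [zero_smul, sub_zero] at hc
    exact x2 ⟨hc, h.mem iso rk x1.2 (mem_perp.1 x1.1 x hc)⟩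
  have x3 : c⁻¹ • x - w ∈ U := by
    have := U.smul_mem c⁻¹ hc
    rwa [smul_sub, inv_smul_smul₀ c0] at this
  have x4 := (perp B U₂).smul_mem c⁻¹ x1.2
  have k : ∀ v ∈ U, ψ v = 0 → v ∈ U₂ := fun v hv v0 => by
    obtain ⟨g, hg, g0, e⟩ := s.tr h f x3 hv v0
    refine h.mem iso rk ?_ (mem_perp.1 (f.iso hv) v hv)
    rw [← add_sub_cancel_left (c⁻¹ • x) v, ← e]
    exact sub_mem (mem_perp.2 fun u hu => (UG_apply_right (h.le hg) u _).trans
      (mem_perp.1 x4 _ (inv _ (inv_mem hg) (s.bt_inv h f hg g0) u hu))) x4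
  obtain ⟨y, y1, y2⟩ : ∃ y ∈ U₂, y ∉ U := SetLike.not_le_iff_exists.1 fun l =>
    n (Submodule.eq_of_le_of_finrank_eq l (rk.trans f.rank.symm))
  obtain ⟨g, hg, g0, g1, g2⟩ := s.beta h f (y := y) (fun u hu u0 => mem_perp.1 (iso (k u hu u0)) y y1)
    fun m => y2 (h.mem f.iso f.rank m (mem_perp.1 (iso y1) y y1))
  refine n (Submodule.eq_of_le_of_finrank_eq (fun u hu => ?_) (f.rank.trans rk.symm)).symm
  have := add_mem (k (u - (ψ u / ψ (g y - y)) • (g y - y)) (sub_mem hu (U.smul_mem _ g1)) (by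
    rw [map_sub, map_smul, smul_eq_mul, div_mul_cancel₀ _ g2, sub_self]))
    (U₂.smul_mem (ψ u / ψ (g y - y)) (sub_mem (inv g hg g0 y y1) y1))
  rwa [sub_add_cancel] at this

/-- the map `η g = g u₀ - u₀` from `D` onto a hyperplane `C = C_U(D)` -/
theorem bt_eta (tf : TF P U w) {C : Submodule F V}
    (hC : ∀ x, x ∈ C ↔ x ∈ U ∧ ∀ g ∈ P, ψ (g w - w) = 0 → g x = x) (rk : finrank F C + 1 = m) {φ : V →ₗ[F] F}
    {u₀ : V} (m₀ : u₀ ∈ U) (e₀ : φ u₀ = 1) (h0 : ∀ x ∈ C, φ x = 0) :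
    (∀ u ∈ U, φ u = 0 → u ∈ C) ∧ (∀ g ∈ P, ψ (g w - w) = 0 → ∀ u ∈ U, g u = u + φ u • (g u₀ - u₀)) ∧
      (∀ g ∈ P, ψ (g w - w) = 0 → g u₀ - u₀ ∈ C) ∧ (∀ c ∈ C, ∃ g ∈ P, ψ (g w - w) = 0 ∧ g u₀ - u₀ = c) ∧
      ∀ g ∈ P, ψ (g w - w) = 0 → ∀ k ∈ P, ψ (k w - w) = 0 → ∀ u ∈ U, g (k u) = k (g u) := by
  have := Module.Finite.of_finite (R := F) (M := V)
  have := h.bar.finite
  have hyp : ∀ {φ : V →ₗ[F] F} {u₀ : V}, u₀ ∈ U → φ u₀ = 1 → finrank F (U ⊓ LinearMap.ker φ : Submodule F V) + 1 = m :=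
    fun {φ u₀} m₀ e₀ => by
      rw [← Submodule.finrank_sup_span_singleton (v := u₀) (by simp [e₀]), ← f.rank]
      refine congrArg (fun X : Submodule F V => finrank F X) ?_
      refine le_antisymm (sup_le inf_le_left ((Submodule.span_singleton_le_iff_mem _ _).2 m₀)) fun u hu => ?_
      rw [← sub_add_cancel u (φ u • u₀)]
      exact add_mem (Submodule.mem_sup_left ⟨sub_mem hu (U.smul_mem _ m₀), by simp [e₀]⟩)
        (Submodule.mem_sup_right (Submodule.smul_mem _ _ (Submodule.mem_span_singleton_self _)))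
  have eC : C = U ⊓ LinearMap.ker φ := Submodule.eq_of_le_of_finrank_eq (fun x hx => ⟨((hC x).1 hx).1, h0 x hx⟩)
    (by have := hyp m₀ e₀; omega)
  have k1 : ∀ u ∈ U, φ u = 0 → u ∈ C := fun u hu e => eC ▸ ⟨hu, e⟩
  have k2 : ∀ g ∈ P, ψ (g w - w) = 0 → ∀ u ∈ U, g u = u + φ u • (g u₀ - u₀) := fun g hg g0 u hu => by
    have := ((hC _).1 (k1 (u - φ u • u₀) (sub_mem hu (U.smul_mem _ m₀)) (by simp [e₀]))).2 g hg g0
    rw [map_sub, map_smul] at this
    linear_combination (norm := module) this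
  have k3 : ∀ g ∈ P, ψ (g w - w) = 0 → g u₀ - u₀ ∈ C := fun g hg g0 => by
    refine k1 _ (sub_mem (f.inv g hg _ m₀) m₀) ?_
    have pw : ∀ n : ℕ, (g ^ n) u₀ ∈ U ∧ φ ((g ^ n) u₀) = (1 + φ (g u₀ - u₀)) ^ n := fun n =>
      ⟨f.inv _ (pow_mem hg n) _ m₀, by
        induction n with
        | zero => simpa using e₀
        | succ n ih =>
          rw [pow_succ', LinearEquiv.mul_apply, k2 g hg g0 _ (f.inv _ (pow_mem hg n) _ m₀), map_add, map_smul, ih,
            smul_eq_mul]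
          ring⟩
    obtain ⟨j, hj⟩ := h.pg ⟨g, hg⟩
    have := (pw (p ^ j)).2
    have := Fact.mk h.prime
    have : CharP F p := (CharP.charP_iff_prime_eq_zero h.prime).2 h.char
    rw [show g ^ p ^ j = 1 from congrArg Subtype.val hj, add_pow_char_pow, one_pow] at *
    exact pow_eq_zero_iff (pow_ne_zero j h.prime.ne_zero) |>.1 (by linear_combination e₀ - (‹φ _ = _› : φ u₀ = _))
  have k5 : ∀ g ∈ P, ψ (g w - w) = 0 → ∀ k ∈ P, ψ (k w - w) = 0 → ∀ u ∈ U, g (k u) = k (g u) :=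
    fun g hg g0 k hk k0 u hu => by
      rw [k2 k hk k0 u hu, map_add, map_smul, ((hC _).1 (k3 k hk k0)).2 g hg g0, k2 g hg g0 u hu, map_add, map_smul,
        ((hC _).1 (k3 g hg g0)).2 k hk k0, k2 k hk k0 u hu]
      abel
  refine ⟨k1, k2, k3, fun c hc => ?_, k5⟩
  obtain ⟨u₁, m₁, e₁⟩ := s.ne
  choose t t1 t2 t3 using fun v : (U ⊓ LinearMap.ker ψ : Submodule F V) =>
    s.tr h f (x := w) (by simp) v.2.1 v.2.2
  obtain ⟨v, hv⟩ := (Function.Injective.bijective_of_nat_card_le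
    (f := fun v : (U ⊓ LinearMap.ker ψ : Submodule F V) => (⟨_, k3 _ (t1 v) (t2 v)⟩ : C)) (fun v v' e => by
      have e' : t v u₀ - u₀ = t v' u₀ - u₀ := congrArg Subtype.val e
      have := tf _ (mul_mem (inv_mem (t1 v')) (t1 v)) fun u hu => (t v').symm_apply_eq.2 (show t v u = _ by
        rw [k2 _ (t1 v) (t2 v) u hu, k2 _ (t1 v') (t2 v') u hu, e'])
      replace this : t v w = t v' w := (t v').symm_apply_eq.1 this
      rw [t3, t3] at this
      exact Subtype.ext (add_left_cancel this)) (by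
      rw [Module.natCard_eq_pow_finrank (K := F) (V := C),
        Module.natCard_eq_pow_finrank (K := F) (V := (U ⊓ LinearMap.ker ψ : Submodule F V)),
        show finrank F C = finrank F (U ⊓ LinearMap.ker ψ : Submodule F V) by have := hyp m₁ e₁; omega])).2 ⟨c, hc⟩
  exact ⟨_, t1 v, t2 v, congrArg Subtype.val hv⟩

end St

/-- `b ∈ U`, `r` trivial on `U^⊥` with `r y = y + b`, `ψ b = 0`; `k u = u + ψ u • (l • b)` on `U`, `B y u = ψ u` on `U`.
Put `N = r - 1`: `N V ≤ (U^⊥)^⊥ = U`, `N² = 0`, `B (N v) v' = - B v (N v')`.  `k⁻¹ v - v - B (l b) v • y' ∈ U^⊥` up to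
sign and conjugation; expanding, `k r k⁻¹ r⁻¹ v = v + (c * B b v) • b` with `c = ± (l - σ l)`.  (Test both sides
with `B u ·`, or use that `k N k⁻¹ - N` is determined by the form `(v, v') ↦ B v (N v')`.) -/
theorem comm3 (h : IsHerm σ B) (iso : U ≤ perp B U) {k r : V ≃ₗ[F] V} (hk : k ∈ UG B) (hr : r ∈ UG B)
    {y b : V} {l : F} (hb : b ∈ U) (b0 : ψ b = 0) (hy : ∀ u ∈ U, B y u = ψ u) (r1 : ∀ x ∈ perp B U, r x = x)
    (r2 : r y = y + b) (k1 : ∀ u ∈ U, k u = u + ψ u • l • b) :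
    ∃ c : F, (c = l - σ l ∨ c = σ l - l) ∧ ∀ v, (k * r * k⁻¹ * r⁻¹) v = v + (c * B b v) • b := by
  have := Module.Finite.of_finite (R := F) (M := V)
  have N : ∀ v, r v - v ∈ U := fun v => h.perp_perp U ▸ mem_perp.2 fun x hx => by
    rw [map_sub, ← hr x v, r1 x hx, sub_self]
  have kb : k b = b := by rw [k1 b hb, b0, zero_smul, add_zero]
  refine ⟨_, .inr rfl, fun v => ?_⟩
  obtain ⟨v, rfl⟩ := (r * k).surjective v
  have e1 : B b ((r * k) v) = B b v := by rw [← mul_mem hr hk b v, LinearEquiv.mul_apply r k b, kb, r1 b (iso hb)]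
  have e2 : ψ (r v - v) = -B b v := by
    have := hr y v
    have e := hr b v
    rw [r1 b (iso hb)] at e
    rw [r2, map_add, LinearMap.add_apply, e] at this
    rw [← hy _ (N v), map_sub]
    linear_combination this
  have e3 := r1 (k v - v + (σ l * B b v) • y) (mem_perp.2 fun u hu => by
    have := hk u v
    have e := hk b v
    rw [kb] at e
    rw [k1 u hu, map_add, LinearMap.add_apply, LinearMap.map_smulₛₗ₂, LinearMap.map_smulₛₗ₂, e, ← hy u hu,
      h.symm] at this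
    simp only [map_add, map_sub, map_smul, smul_eq_mul] at this ⊢
    linear_combination this)
  have e4 := k1 _ (N v)
  rw [e1, ← LinearEquiv.mul_apply, show k * r * k⁻¹ * r⁻¹ * (r * k) = k * r by group]
  simp only [map_add, map_sub k, map_sub r, map_smul, r2, e2, LinearEquiv.mul_apply] at e3 e4 ⊢
  linear_combination (norm := module) e4 - e3

/-- `C = C_U(D)` has dimension at most three.  `C = U`: `D` consists of translations, but moves `w` (`tr`).
`dim C = 4`, `C = U ⊓ ker φ`: `g u = u + φ u • η g` for `g ∈ D`, `η g ∈ C` (as `g` is a `p`-element), `η` additive, and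
`η g = η k` implies `g w = k w` (`tf`), so `η` is onto `C` (count: `tr`, `|U ⊓ ker ψ| = |C|`).  `g k` and `k g` agree on `U`,
so at `w`: `φ (k w - w) • η g = φ (g w - w) • η k`; as `dim C > 1`, `φ = 0` on `U ⊓ ker ψ`; so `C = U ⊓ ker ψ`, take `φ = ψ`.
Choose `y` with `B y u = ψ u` on `U`, `g` from `beta`, `k ∈ D` with `η k ∉ F η g`.  `r = (g k) (k g)⁻¹` is trivial on
`U^⊥` and `r y = y + b`, `b = β k • η g - β g • η k ≠ 0` (`β g = ψ (g y - y)`; `k y - y ∈ U` for all `k ∈ D`).  `comm3` with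
`η k' = l • b`, `σ l ≠ l`, contradicts `nt`. -/
theorem St.four (h : PL B q p 5 P) (f : Fr B 5 P U w) (s : St P U w e a ψ) (tf : TF P U w) (nt : NTv B P)
    {C : Submodule F V} (hC : ∀ x, x ∈ C ↔ x ∈ U ∧ ∀ g ∈ P, ψ (g w - w) = 0 → g x = x) :
    finrank F C ≤ 3 := by
  have := Module.Finite.of_finite (R := F) (M := V)
  by_contra! n
  have CU : C ≤ U := fun x hx => ((hC x).1 hx).1
  obtain ⟨u₁, m₁, e₁⟩ := s.ne
  obtain ⟨u₀, m₀, n₀⟩ : ∃ u ∈ U, u ∉ C := SetLike.not_le_iff_exists.1 fun l => by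
    obtain ⟨g, hg, eg⟩ := f.tr _ m₁
    have e0 : ψ e = 0 := by
      have := s.fp g hg a s.aU
      rw [s.fa g hg, eg, add_sub_cancel_left, e₁, one_smul, map_add] at this
      linear_combination this
    obtain ⟨k, hk, k0, ek⟩ := s.tr h f (x := w) (by simp) s.eU e0
    rw [tf k hk fun u hu => ((hC u).1 (l hu)).2 k hk k0] at ek
    exact s.e0 (by simpa using ek)
  have rk : finrank F C + 1 = 5 := by
    have := Submodule.finrank_lt_finrank_of_lt (lt_of_le_of_ne CU fun e => n₀ (e ▸ m₀))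
    have := f.rank
    omega
  have line : ∀ x : V, ∃ c ∈ C, c ∉ F ∙ x := fun x => SetLike.not_le_iff_exists.1 fun l => by
    have := (Submodule.finrank_mono l).trans (finrank_span_le_card ({x} : Set V))
    simp at this
    omega
  have h0 : ∀ x ∈ C, ψ x = 0 := by
    obtain ⟨φ, φ1, φ2⟩ : ∃ φ : V →ₗ[F] F, φ u₀ = 1 ∧ ∀ x ∈ C, φ x = 0 := by
      obtain ⟨φ, φ1, φ2⟩ := C.exists_le_ker_of_notMem n₀
      exact ⟨(φ u₀)⁻¹ • φ, by simp [φ1], fun x hx => by simp [LinearMap.mem_ker.1 (φ2 hx)]⟩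
    obtain ⟨k1, k2, -, k4, k5⟩ := s.bt_eta h f tf hC rk m₀ φ1 φ2
    have W : U ⊓ LinearMap.ker ψ ≤ C := fun v hv => k1 v hv.1 <| by_contra fun v0 => by
      obtain ⟨k, hk, k0, ek⟩ := s.tr h f (x := w) (by simp) hv.1 hv.2
      obtain ⟨c, c1, c2⟩ := line (k u₀ - u₀)
      obtain ⟨g, hg, g0, rfl⟩ := k4 c c1
      have := tf _ (mul_mem (inv_mem (mul_mem hk hg)) (mul_mem hg hk)) fun u hu =>
        (k * g).symm_apply_eq.2 (k5 g hg g0 k hk k0 u hu)
      replace this : g (k w) = k (g w) := (k * g).symm_apply_eq.1 this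
      rw [ek, ← sub_add_cancel (g w) w, map_add, map_add, k2 g hg g0 v hv.1, k2 k hk k0 _ (f.fix g hg), ek] at this
      refine c2 (Submodule.mem_span_singleton.2 ⟨(φ v)⁻¹ * φ (g w - w), ?_⟩)
      rw [mul_smul, inv_smul_eq_iff₀ v0]
      linear_combination (norm := module) -this
    intro x hx
    by_contra x0
    refine n₀ ?_
    have := add_mem (W (x := u₀ - (ψ u₀ / ψ x) • x) ⟨sub_mem m₀ (U.smul_mem _ (CU hx)), LinearMap.mem_ker.2 <| by
      rw [map_sub, map_smul, smul_eq_mul, div_mul_cancel₀ _ x0, sub_self]⟩)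
      (C.smul_mem (ψ u₀ / ψ x) hx)
    rwa [sub_add_cancel] at this
  obtain ⟨-, k2, k3, k4, k5⟩ := s.bt_eta h f tf hC rk m₁ e₁ h0
  obtain ⟨y, hy⟩ := h.herm.exists_eq ψ
  obtain ⟨g, hg, g0, g1, g2⟩ := s.beta h f (y := y) (fun u _ e => by rw [hy, e]) fun m => by
    have := h.herm.eq_zero_comm.1 (mem_perp.1 m _ m₁)
    rw [hy, e₁] at this
    exact one_ne_zero this
  obtain ⟨c, c1, c2⟩ := line (g u₁ - u₁)
  obtain ⟨k, hk, k0, rfl⟩ := k4 c c1
  obtain ⟨κ, κ1, κ2⟩ := s.bt_kap h f (y := y) (c₀ := 1) (fun u _ => by rw [hy, one_mul]) hk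
  rw [k0, mul_zero, map_zero, neg_zero] at κ2
  rw [(mul_eq_zero.1 κ2).resolve_right f.w0, zero_smul, sub_zero] at κ1
  have m := mul_mem (mul_mem hg hk) (inv_mem (mul_mem hk hg))
  have e0 : ∀ x, (g * k * (k * g)⁻¹) (k (g x)) = g (k x) := fun x =>
    congrArg (fun x => g (k x)) ((k * g).symm_apply_apply x)
  have r0 : ∀ u ∈ U, (g * k * (k * g)⁻¹) u = u := fun u hu => by
    have hu' := f.inv _ (inv_mem (mul_mem hk hg)) u hu
    exact (k5 g hg g0 k hk k0 _ hu').trans ((k * g).apply_symm_apply u)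
  generalize g * k * (k * g)⁻¹ = r at m e0 r0
  have bC := sub_mem (C.smul_mem (ψ (k y - y)) (k3 g hg g0)) (C.smul_mem (ψ (g y - y)) c1)
  obtain ⟨l, hl⟩ := bt_ne h.herm
  obtain ⟨k', hk', k0', ek'⟩ := k4 _ (C.smul_mem l bC)
  obtain ⟨c, hc, e⟩ := comm3 h.herm f.iso (h.le hk') (h.le m) (y := y) (CU bC) (h0 _ bC) (fun u _ => by rw [hy])
    (fun x hx => by
      obtain ⟨c, hc⟩ := f.span x hx
      rw [← sub_add_cancel x (c • w), map_add, map_smul, r0 _ hc, tf r m r0]) (by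
      have e1 := e0 y
      have e2 := k2 k hk k0 _ g1
      have e3 := k2 g hg g0 _ κ1
      have e4 := r0 _ (add_mem (f.inv k hk _ g1) κ1)
      simp only [map_add, map_sub k, map_sub g, map_sub r] at e2 e3 e4
      linear_combination (norm := module) e1 + e3 - e4 - e2) (fun u hu => by rw [k2 k' hk' k0' u hu, ek'])
  rcases nt _ (mul_mem (mul_mem (mul_mem hk' m) (inv_mem hk')) (inv_mem m)) _ c
    (mem_perp.1 (f.iso (CU bC)) _ (CU bC)) e with c0 | b0
  · exact hl (by rcases hc with rfl | rfl <;> [linear_combination -c0; linear_combination c0])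
  · refine c2 (Submodule.mem_span_singleton.2 ⟨(ψ (g y - y))⁻¹ * ψ (k y - y), ?_⟩)
    rw [mul_smul, inv_smul_eq_iff₀ g2]
    exact sub_eq_zero.1 b0

end Cfsg.Lib.US11
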