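import Cfsg.Agent.Lib.US11.DioA
import Cfsg.Agent.Lib.US11.DioB
import Cfsg.Agent.Lib.US11.DioC

/-! # Possible character degrees `k τ - a` for subgroups of `GU₁₁(q)`, `11 ∣ q + 1` -/

set_option autoImplicit false

namespace Cfsg.Lib.US7

open Cfsg.Lib.Unitary

theorem chk_all {k a : ℕ} (a1 : 1 ≤ a) (a3 : a ≤ 3) (ak : a < k) (k11 : k ≤ 11) :
    k = 11 ∧ a = 1 ∨ ∃ u v R d, chk k a u v R d = true := by
  interval_cases a <;> interval_cases k
  exacts [.inr chk_2_1, .inr chk_3_1, .inr chk_4_1, .inr chk_5_1, .inr chk_6_1, .inr chk_7_1, .inr chk_8_1, .inr chk_9_1,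
    .inr chk_10_1, .inl ⟨rfl, rfl⟩, .inr chk_3_2, .inr chk_4_2, .inr chk_5_2, .inr chk_6_2, .inr chk_7_2, .inr chk_8_2,
    .inr chk_9_2, .inr chk_10_2, .inr chk_11_2, .inr chk_4_3, .inr chk_5_3, .inr chk_6_3, .inr chk_7_3, .inr chk_8_3,
    .inr chk_9_3, .inr chk_10_3, .inr chk_11_3]

theorem ev_pC (x : ℤ) : dioEv x pC = (x + 1) * (x ^ 2 - 1) * (x ^ 3 + 1) * (x ^ 4 - 1) * (x ^ 5 + 1) * (x ^ 6 - 1) *
    (x ^ 7 + 1) * (x ^ 8 - 1) * (x ^ 9 + 1) * (x ^ 10 - 1) * (x ^ 11 + 1) := by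
  simp only [pC, dioEv]; ring

theorem nine_aux (x : ℕ) {T P : ℕ} (hT : (x + 33) * T = (x + 32) ^ 11 + 1) (hP : (x + 33) * P + 11 = T) :
    dioEv (x + 32) [-10, 9, -8, 7, -6, 5, -4, 3, -2, 1] = P ∧ (x + 32) ^ 8 * (x + 30) ≤ P := by
  have e : dioEv (x + 32) [-10, 9, -8, 7, -6, 5, -4, 3, -2, 1] = P := by
    refine mul_left_cancel₀ (show (x + 33 : ℤ) ^ 2 ≠ 0 by positivity) ?_
    zify at hT hP
    simp only [dioEv]
    linear_combination -hT - (x + 33) * hP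
  refine ⟨e, ?_⟩
  zify
  rw [← e, ← sub_nonneg]
  simp only [dioEv]
  ring_nf
  positivity

theorem nine {s T P c : ℕ} (hT : (11 * s + 33) * T = (11 * s + 32) ^ 11 + 1) (hP : (11 * s + 33) * P + 11 = T)
    (hc : c ∣ 60) (hd : (P : ℤ) ∣ c * dioEv (11 * s + 32) pC) : False := by
  obtain ⟨u, v, R, d, h1, h2, h3, h4⟩ := chk_nine
  obtain ⟨e, b2⟩ := nine_aux (11 * s) hT hP
  push_cast at e
  have d2 : P ∣ 60 * R := by
    have := bzk_dvd h1 (x := 11 * s + 32) (c := c) (by rw [e]; exact hd)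
    rw [e] at this
    exact Dvd.dvd.trans (by exact_mod_cast this) (Nat.mul_dvd_mul_right hc R)
  by_cases c : s < 2 ^ d
  · have := lp_spec _ _ _ h4 s c
    rw [zero_mul, zero_add, ← hT, Nat.mul_div_cancel_left _ (by omega), ← hP, Nat.add_sub_cancel,
      Nat.mul_div_cancel_left _ (by omega), Nat.mod_eq_zero_of_dvd d2] at this
    simp at this
  exact absurd (h3.trans_le ((Nat.mul_le_mul (Nat.pow_le_pow_left (by omega) _) (by omega)).trans b2))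
    (not_lt.2 (Nat.le_of_dvd (by omega) d2))

/-- as `dio` -/
theorem dio11 {p e q τ k a D : ℕ} (hp : p.Prime) (hq : q = p ^ e) (h : Nm q 11 11 τ) (h32 : 32 ≤ q)
    (a1 : 1 ≤ a) (a3 : a ≤ 3) (ak : a ≤ k) (k11 : k ≤ 11) (hD : D + a = k * τ)
    (hd : D ∣ guOrder q 11) : k = 11 ∧ a = 1 := by
  have g : guOrder q 11 = q ^ 55 * ((q + 1) * (q ^ 2 - 1) * (q ^ 3 + 1) * (q ^ 4 - 1) * (q ^ 5 + 1) * (q ^ 6 - 1) *
      (q ^ 7 + 1) * (q ^ 8 - 1) * (q ^ 9 + 1) * (q ^ 10 - 1) * (q ^ 11 + 1)) := by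
    simp [guOrder_def, Finset.prod_range_succ, Nat.even_iff]
  rw [g] at hd
  have h11 : 11 ∣ q + 1 := h.gcd ▸ Nat.gcd_dvd_right 11 (q + 1)
  have t : (11 * τ : ℤ) = q * (q ^ 9 - q ^ 8 + q ^ 7 - q ^ 6 + q ^ 5 - q ^ 4 + q ^ 3 - q ^ 2 + q - 1) + 1 := by
    have : ((q : ℤ) + 1) * (11 * τ) = q ^ 11 + 1 := by exact_mod_cast h.mul
    exact mul_left_cancel₀ (show (q : ℤ) + 1 ≠ 0 by omega) (by rw [this]; ring)
  have hD' : (D : ℤ) + a = k * τ := by exact_mod_cast hD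
  by_contra hne
  have c0 : 0 < 11 * a - k := by omega
  have d1 : Nat.gcd D (q ^ 55) ∣ 11 * a - k := by
    have E : ∀ r : ℕ, r ∣ q → r ∣ D → r ∣ 11 * a - k := fun r ⟨y, hy⟩ ⟨z, hz⟩ => by
      zify [show k ≤ 11 * a by omega] at hy hz ⊢
      generalize (q ^ 9 - q ^ 8 + q ^ 7 - q ^ 6 + q ^ 5 - q ^ 4 + q ^ 3 - q ^ 2 + q - 1 : ℤ) = X at t
      exact ⟨k * y * X - 11 * z, by linear_combination 11 * hD' + k * t - 11 * hz + k * X * hy⟩
    obtain ⟨j, -, hj⟩ := (Nat.dvd_prime_pow hp).1 (show Nat.gcd D (q ^ 55) ∣ p ^ (e * 55) by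
      rw [pow_mul, ← hq]; exact Nat.gcd_dvd_right _ _)
    rcases le_total j e with le | le
    · exact E _ (by rw [hj, hq]; exact pow_dvd_pow p le) (Nat.gcd_dvd_left _ _)
    · have := Nat.le_of_dvd c0 (E q dvd_rfl (Dvd.dvd.trans (by rw [hj, hq]; exact pow_dvd_pow p le)
        (Nat.gcd_dvd_left D (q ^ 55))))
      omega
  have d2 := (Nat.dvd_gcd_mul_iff_dvd_mul.2 hd).trans (Nat.mul_dvd_mul_right d1 _)
  have o : ∀ i, 1 ≤ q ^ i := fun i => Nat.one_le_pow _ _ (by omega)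
  have d3 : (D : ℤ) ∣ (11 * a - k) * dioEv q pC := by
    zify [show k ≤ 11 * a by omega, o] at d2
    rwa [ev_pC]
  have m := h.mul
  obtain ⟨s, rfl⟩ : ∃ s, q = 11 * s + 32 := ⟨(q - 32) / 11, by omega⟩
  push_cast at d3
  rcases ak.eq_or_lt with rfl | lt
  · obtain ⟨P, hP⟩ : (11 * s + 33 : ℤ) ∣ 11 * τ - 11 := by
      rw [t]
      exact ⟨dioEv (11 * s + 32) [-10, 9, -8, 7, -6, 5, -4, 3, -2, 1], by simp only [dioEv]; push_cast; ring⟩
    have := h.one_lt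
    lift P to ℕ using by
      clear * - hP this
      by_contra n
      nlinarith
    refine nine (c := 10 * a) m (P := P) (by zify; linear_combination -hP) (by interval_cases a <;> norm_num)
      (Dvd.dvd.trans ⟨a * (s + 3), mul_left_cancel₀ (show (11 : ℤ) ≠ 0 by norm_num) ?_⟩
        (d3.trans (by push_cast; rw [show (11 * a - a : ℤ) = 10 * a by ring])))
    linear_combination 11 * hD' + a * hP
  · obtain ⟨u, v, R, d, hc⟩ := (chk_all a1 a3 lt k11).resolve_left hne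
    exact chk_spec hc (by omega) (by omega) m (by rw [← mul_add, hD, mul_left_comm]) d3

end Cfsg.Lib.US7
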