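import Cfsg.Agent.Lib.US7.Num

/-! # Arithmetic for `SU₁₁(q)` -/

set_option autoImplicit false

namespace Cfsg.Lib.US7

/-- as `Nm.big'` -/
theorem Nm.big11 {q d τ : ℕ} (h : Nm q 11 d τ) (hq : 3 ≤ q) :
    144 < τ ∧ 11 * d * τ < (τ - 1) * (τ - 11) := by
  have hd : d ≤ 11 := h.gcd ▸ Nat.gcd_le_left _ (by norm_num)
  have h1 : 144 < τ := by
    by_contra hτ
    have h2 : d * τ ≤ 11 * 144 := Nat.mul_le_mul hd (by omega)
    have h3 : 3 ^ 10 ≤ q ^ 10 := Nat.pow_le_pow_left hq 10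
    have h4 := Nat.mul_le_mul_left (q + 1) h2
    have h5 := Nat.mul_le_mul_right q h3
    rw [h.mul, pow_succ] at h4
    omega
  obtain ⟨t, rfl⟩ : ∃ t, τ = t + 11 := ⟨τ - 11, by omega⟩
  refine ⟨h1, ?_⟩
  rw [Nat.add_sub_cancel, show t + 11 - 1 = t + 10 by omega]
  nlinarith [Nat.mul_le_mul_right (t + 11) hd]

/-- `10` and `21` are not prime powers -/
theorem le_of_pp11 {p e q : ℕ} (hp : p.Prime) (hq : q = p ^ e) (h : 11 ∣ q + 1) : 32 ≤ q := by
  by_contra hl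
  have key : ∀ a b : ℕ, a.Prime → b.Prime → a ∣ q → b ∣ q → a = b := fun a b ha hb h1 h2 => by
    rw [hq] at h1 h2
    rw [(Nat.prime_dvd_prime_iff_eq ha hp).1 (ha.dvd_of_dvd_pow h1),
      (Nat.prime_dvd_prime_iff_eq hb hp).1 (hb.dvd_of_dvd_pow h2)]
  have : q = 10 ∨ q = 21 := by omega
  rcases this with h1 | h1
  · exact absurd (key 2 5 Nat.prime_two Nat.prime_five (by omega) (by omega)) (by norm_num)
  · exact absurd (key 3 7 Nat.prime_three (by norm_num) (by omega) (by omega)) (by norm_num)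

theorem ord_ten {q s : ℕ} (hs : s.Prime) (h5 : s ≠ 5) (hd : s ∣ q ^ 4 + q ^ 3 + q ^ 2 + q + 1) :
    orderOf (-(q : ZMod s)) = 10 := by
  haveI := Fact.mk hs
  have e : (q : ZMod s) ^ 4 + q ^ 3 + q ^ 2 + q + 1 = 0 := by
    exact_mod_cast (ZMod.natCast_eq_zero_iff _ _).2 hd
  have ne : ∀ p : ℕ, p.Prime → s ≠ p → (p : ZMod s) ≠ 0 := fun p hp n z =>
    n ((Nat.prime_dvd_prime_iff_eq hs hp).1 ((ZMod.natCast_eq_zero_iff _ _).1 z))
  refine orderOf_eq_of_pow_and_pow_div_prime (by norm_num) (by linear_combination (q ^ 5 + 1) * (q - 1) * e)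
    fun p hp h6 z => ?_
  rcases (Nat.Prime.dvd_mul hp (m := 2) (n := 5)).1 h6 with h | h
  · obtain rfl := (Nat.prime_dvd_prime_iff_eq hp Nat.prime_two).1 h
    refine ne 2 Nat.prime_two (fun h2 => ?_) ?_
    · subst h2
      rw [show q ^ 4 + q ^ 3 + q ^ 2 + q + 1 = q * (q + 1) * (q ^ 2 + 1) + 1 by ring] at hd
      exact absurd ((Nat.dvd_add_right ((Nat.even_mul_succ_self q).two_dvd.mul_right _)).1 hd) (by norm_num)
    · change (-(q : ZMod s)) ^ 5 = 1 at z
      push_cast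
      linear_combination -z - (q - 1) * e
  · obtain rfl := (Nat.prime_dvd_prime_iff_eq hp Nat.prime_five).1 h
    refine ne 5 Nat.prime_five h5 ?_
    change (-(q : ZMod s)) ^ 2 = 1 at z
    push_cast
    linear_combination (3 - 2 * q) * e - ((3 - 2 * q) * (q ^ 2 + q + 2) - 4) * z

/-- As `exists_big'`.  A prime `s ≠ 5` dividing `Φ₅(q)` is odd, `q` has order `5` and `-q` order `10` mod `s`, so `s ≡ 1 mod 10`;
`s ≠ 11` as `q ≡ -1`; `25 ∤ Φ₅(q)`.  Otherwise `Φ₅(q) ∣ 5·31·41·61·71·101 = 2779874005`, `q < 230`, finite check. -/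
theorem exists_big11 {q : ℕ} (h : 11 ∣ q + 1) (hq : 32 ≤ q) :
    ∃ s a : ℕ, s.Prime ∧ 121 < s ^ a ∧ s ^ a ∣ q ^ 4 + q ^ 3 + q ^ 2 + q + 1 ∧ orderOf (-(q : ZMod s)) = 10 := by
  by_contra! H
  have hd : q ^ 4 + q ^ 3 + q ^ 2 + q + 1 ∣ 2779874005 := by
    refine (Nat.dvd_iff_prime_pow_dvd_dvd _ _).2 fun s a hs ha => ?_
    rcases a with _ | a
    · simp
    have h1 : s ∣ q ^ 4 + q ^ 3 + q ^ 2 + q + 1 := (dvd_pow_self s a.succ_ne_zero).trans ha
    rcases eq_or_ne s 5 with rfl | h5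
    · rcases a with _ | a
      · norm_num
      · have h9 : 25 ∣ q ^ 4 + q ^ 3 + q ^ 2 + q + 1 := (pow_dvd_pow 5 (by omega : 2 ≤ a + 1 + 1)).trans ha
        have : ∀ x : ZMod 25, x ^ 4 + x ^ 3 + x ^ 2 + x + 1 ≠ 0 := by decide
        exact absurd (by exact_mod_cast (ZMod.natCast_eq_zero_iff _ _).2 h9) (this q)
    have ho := ord_ten hs h5 h1
    have hl : s ^ (a + 1) ≤ 121 := not_lt.1 fun h => H s _ hs h ha ho
    haveI := Fact.mk hs
    have h6 : 10 ∣ s - 1 := by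
      rw [← ho]
      refine ZMod.orderOf_dvd_card_sub_one fun z => ?_
      rw [z, orderOf_eq_zero_iff'.2 fun n hn => by simp [hn.ne']] at ho
      omega
    have s11 : s ≠ 11 := by
      rintro rfl
      have e1 : (q : ZMod 11) + 1 = 0 := by exact_mod_cast (ZMod.natCast_eq_zero_iff _ _).2 h
      have e2 : (q : ZMod 11) ^ 4 + q ^ 3 + q ^ 2 + q + 1 = 0 := by
        exact_mod_cast (ZMod.natCast_eq_zero_iff _ _).2 h1
      exact absurd (show (1 : ZMod 11) = 0 by linear_combination e2 - (q ^ 3 + q) * e1) one_ne_zero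
    have h2 := hs.two_le
    have s21 : s ≠ 21 := by rintro rfl; norm_num at hs
    have s51 : s ≠ 51 := by rintro rfl; norm_num at hs
    have s81 : s ≠ 81 := by rintro rfl; norm_num at hs
    have s91 : s ≠ 91 := by rintro rfl; norm_num at hs
    have s111 : s ≠ 111 := by rintro rfl; norm_num at hs
    have s121 : s ≠ 121 := by rintro rfl; norm_num at hs
    rcases a with _ | a
    · rw [zero_add, pow_one] at hl ⊢
      obtain rfl | rfl | rfl | rfl | rfl : s = 31 ∨ s = 41 ∨ s = 61 ∨ s = 71 ∨ s = 101 := by omega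
      all_goals norm_num
    · have := (Nat.pow_le_pow_left (show 31 ≤ s by omega) 2).trans
        ((Nat.pow_le_pow_right hs.pos (by omega : 2 ≤ a + 1 + 1)).trans hl)
      omega
  have hl : q < 230 := by
    by_contra hl
    have h1 := Nat.le_of_dvd (by norm_num) hd
    have h2 : 230 ^ 4 ≤ q ^ 4 := Nat.pow_le_pow_left (by omega) 4
    omega
  have := (by decide +kernel : ∀ a < 20, ¬ (11 * a + 32) ^ 4 + (11 * a + 32) ^ 3 + (11 * a + 32) ^ 2 + (11 * a + 32) + 1 ∣ 2779874005)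
    ((q - 32) / 11) (by omega)
  rw [show 11 * ((q - 32) / 11) + 32 = q by omega] at this
  exact this hd

end Cfsg.Lib.US7
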