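import Cfsg.Agent.Lib.US7.PF

/-! # Polynomial method for `n = 11` -/

set_option autoImplicit false
set_option linter.unusedSectionVars false

namespace Cfsg.Lib.US7

open Finsupp MvPolynomial Finset Module Cfsg.Lib.Unitary Cfsg.Lib.CKS

section poly

variable {N f : ℕ} [NeZero N] [NeZero f] {K : Type*} [Field K]

theorem pd_key11 (η x y z : ZMod 11 → K)
    (h : ∀ a b, (if a = b then η (a + 1) else 0) + (if a = b + 1 then η b else 0) +
      (if b = a + 1 then η a else 0) = x a * x b + y a * z b + z a * y b) :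
    η 0 * η 5 = 0 ∧ η 0 * η 4 = 0 ∧ η 0 * η 3 = 0 ∧ (η 3 = 0 → η 0 * η 2 = 0) ∧
      (η 10 = 0 → η 2 = 0 → η 3 = 0 → η 0 * η 1 = 0) := by
  have key : ∀ (u v : Fin 4 → ZMod 11) (M : Matrix (Fin 4) (Fin 4) K),
      (∀ i j, M i j = (if u i = v j then η (u i + 1) else 0) + (if u i = v j + 1 then η (v j) else 0) +
      (if v j = u i + 1 then η (u i) else 0)) → M.det = 0 := fun u v M hM =>
    pd_minor (x ∘ u) (y ∘ u) (z ∘ u) (x ∘ v) (y ∘ v) (z ∘ v) M fun i j => (hM i j).trans (h _ _)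
  have e0 : (0 : ZMod 11) + 1 = 1 := rfl
  have e1 : (1 : ZMod 11) + 1 = 2 := rfl
  have e2 : (2 : ZMod 11) + 1 = 3 := rfl
  have e3 : (3 : ZMod 11) + 1 = 4 := rfl
  have e4 : (4 : ZMod 11) + 1 = 5 := rfl
  have e5 : (5 : ZMod 11) + 1 = 6 := rfl
  have e6 : (10 : ZMod 11) + 1 = 0 := rfl
  refine ⟨?_, ?_, ?_, fun h3 => ?_, fun h6 h2 h3 => ?_⟩
  · have := key ![0, 4, 5, 10] ![1, 4, 6, 10]
      !![η 0, 0, 0, η 10; 0, η 5, 0, 0; 0, η 4, η 5, 0; 0, 0, 0, η 0] (by
        intro i j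
        fin_cases i <;> fin_cases j <;> simp +decide [e0, e1, e4, e5, e6])
    simp [Matrix.det_succ_row_zero, Fin.sum_univ_succ, Fin.succAbove] at this
    rw [mul_eq_zero]; tauto
  · have := key ![0, 3, 4, 10] ![1, 3, 5, 10]
      !![η 0, 0, 0, η 10; 0, η 4, 0, 0; 0, η 3, η 4, 0; 0, 0, 0, η 0] (by
        intro i j
        fin_cases i <;> fin_cases j <;> simp +decide [e0, e1, e3, e4, e5, e6])
    simp [Matrix.det_succ_row_zero, Fin.sum_univ_succ, Fin.succAbove] at this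
    rw [mul_eq_zero]; tauto
  · have := key ![0, 2, 3, 10] ![1, 2, 4, 10]
      !![η 0, 0, 0, η 10; η 1, η 3, 0, 0; 0, η 2, η 3, 0; 0, 0, 0, η 0] (by
        intro i j
        fin_cases i <;> fin_cases j <;> simp +decide [e0, e1, e2, e3, e4, e6])
    simp [Matrix.det_succ_row_zero, Fin.sum_univ_succ, Fin.succAbove] at this
    rw [mul_eq_zero]; tauto
  · have := key ![0, 2, 3, 10] ![1, 2, 3, 10]
      !![η 0, 0, 0, η 10; η 1, η 3, η 2, 0; 0, η 2, η 4, 0; 0, 0, 0, η 0] (by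
        intro i j
        fin_cases i <;> fin_cases j <;> simp +decide [e0, e1, e2, e3, e6])
    simp [h3, Matrix.det_succ_row_zero, Fin.sum_univ_succ, Fin.succAbove] at this
    rw [mul_eq_zero]; tauto
  · have := key ![0, 1, 2, 10] ![0, 1, 2, 10]
      !![η 1, η 0, 0, η 10; η 0, η 2, η 1, 0; 0, η 1, η 3, 0; η 10, 0, 0, η 0] (by
        intro i j
        fin_cases i <;> fin_cases j <;> simp +decide [e0, e1, e2, e6])
    simp [h2, h3, h6, Matrix.det_succ_row_zero, Fin.sum_univ_succ, Fin.succAbove] at this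
    rw [mul_eq_zero]; tauto

theorem rank3_11 (η x y z : ZMod 11 → K)
    (h : ∀ a b, (if a = b then η (a + 1) else 0) + (if a = b + 1 then η b else 0) +
      (if b = a + 1 then η a else 0) = x a * x b + y a * z b + z a * y b) {a b : ZMod 11}
    (ha : η a ≠ 0) (hb : η b ≠ 0) : a = b := by
  have sh := fun s : ZMod 11 =>
    pd_key11 (fun a => η (a + s)) (fun a => x (a + s)) (fun a => y (a + s)) (fun a => z (a + s))
      fun a b => by
        have := h (a + s) (b + s)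
        simp only [add_right_comm _ s 1, add_left_inj] at this
        exact this
  simp only [zero_add] at sh
  have k5 : ∀ s, η s ≠ 0 → η (5 + s) = 0 := fun s hs => (mul_eq_zero.1 (sh s).1).resolve_left hs
  have k4 : ∀ s, η s ≠ 0 → η (4 + s) = 0 := fun s hs => (mul_eq_zero.1 (sh s).2.1).resolve_left hs
  have k3 : ∀ s, η s ≠ 0 → η (3 + s) = 0 := fun s hs => (mul_eq_zero.1 (sh s).2.2.1).resolve_left hs
  have k2 : ∀ s, η s ≠ 0 → η (2 + s) = 0 := fun s hs =>
    (mul_eq_zero.1 ((sh s).2.2.2.1 (k3 s hs))).resolve_left hs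
  have k1 : ∀ s, η s ≠ 0 → η (1 + s) = 0 := fun s hs => by
    by_contra h1
    have h6 : η (10 + s) = 0 := by
      by_contra h6
      have := k2 _ h6
      rw [← add_assoc] at this
      exact h1 this
    exact h1 ((mul_eq_zero.1 ((sh s).2.2.2.2 h6 (k2 s hs) (k3 s hs))).resolve_left hs)
  have : ∀ a b : ZMod 11, a = b ∨ b = 1 + a ∨ b = 2 + a ∨ b = 3 + a ∨ b = 4 + a ∨ b = 5 + a ∨ a = 1 + b ∨
      a = 2 + b ∨ a = 3 + b ∨ a = 4 + b ∨ a = 5 + b := by decide
  rcases this a b with e | e | e | e | e | e | e | e | e | e | e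
  · exact e
  · exact absurd (e ▸ k1 a ha) hb
  · exact absurd (e ▸ k2 a ha) hb
  · exact absurd (e ▸ k3 a ha) hb
  · exact absurd (e ▸ k4 a ha) hb
  · exact absurd (e ▸ k5 a ha) hb
  · exact absurd (e ▸ k1 b hb) ha
  · exact absurd (e ▸ k2 b hb) ha
  · exact absurd (e ▸ k3 b hb) ha
  · exact absurd (e ▸ k4 b hb) ha
  · exact absurd (e ▸ k5 b hb) ha

theorem rank3_11' {A : Type*} [AddCommGroup A] [DecidableEq A] {δ : A}
    (hδ : addOrderOf δ = 11) (η x y z : A → K)
    (h : ∀ a b, (if a = b then η (a + δ) else 0) + (if a = b + δ then η b else 0) +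
      (if b = a + δ then η a else 0) = x a * x b + y a * z b + z a * y b) {c : A} {k : ℕ}
    (ha : η c ≠ 0) (hb : η (c + k • δ) ≠ 0) : k • δ = 0 := by
  let ψ : ZMod 11 →+ A := ZMod.lift 11 ⟨zmultiplesHom A δ, by
    simp only [zmultiplesHom_apply, natCast_zsmul]
    rw [← hδ]; exact addOrderOf_nsmul_eq_zero δ⟩
  have hk : ∀ n : ℕ, ψ n = n • δ := fun n => by
    have := ZMod.lift_coe 11 ⟨zmultiplesHom A δ, by
      simp only [zmultiplesHom_apply, natCast_zsmul]
      rw [← hδ]; exact addOrderOf_nsmul_eq_zero δ⟩ (n : ℤ)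
    simpa using this
  have h1 : ψ 1 = δ := by simpa using hk 1
  have hinj : Function.Injective ψ := by
    rw [injective_iff_map_eq_zero]
    intro a ha
    rw [← ZMod.natCast_zmod_val a] at ha ⊢
    rw [hk, ← addOrderOf_dvd_iff_nsmul_eq_zero, hδ] at ha
    exact (ZMod.natCast_eq_zero_iff _ _).2 ha
  have := rank3_11 (fun a => η (c + ψ a)) (fun a => x (c + ψ a)) (fun a => y (c + ψ a))
    (fun a => z (c + ψ a)) (fun a b => by
      have := h (c + ψ a) (c + ψ b)
      simp only [add_assoc c, add_right_inj, ← h1, ← map_add, hinj.eq_iff] at this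
      exact this) (a := 0) (b := k) (by simpa using ha) (by simpa [hk] using hb)
  rw [← hk, ← this, map_zero]

namespace Iso

variable {cl : ZMod N →+* ZMod f} {H : ZMod N} {α : ZMod N → K} [CharP K 2] [Fintype K]
  (hK : Fintype.card K = 2 ^ N)
include hK

theorem mono_of_cubic11 (h : Iso 11 cl H α) (h1 : cl H = 1) (s : ZMod f)
    (hw : ∀ i j m, cl i = s → cl j = s → cl m = s → i ≠ j → i ≠ m → j ≠ m →
      ww H α (i - 1) j m + ww H α (j - 1) i m + ww H α (m - 1) i j = 0)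
    {κ ι : ZMod N} (hκ : α κ ≠ 0) (hι : α ι ≠ 0) : κ = ι := by
  obtain ⟨d0, dcl⟩ := h.pd_delta h1
  obtain ⟨i, hi⟩ := h.pd_exists s
  obtain ⟨ho, hk⟩ := h.ker d0 dcl
  obtain ⟨k, hk⟩ := hk (i - κ) (i - ι) (by rw [map_sub, map_sub, h.cls κ hκ, h.cls ι hι])
  have key : k • (1 + H) = 0 := by
    refine rank3_11' ho (fun c => bb 2 α c i) (fun a => bb 2 α (a + H) (i - (1 + H) + H))
      (fun a => bb 2 α (a + H) (i + H)) (fun a => bb 2 α (a + H) (i + (1 + H) + H))
      (fun a b => ?_) (c := i - κ) (by simp [bb, hκ]) (by rw [← hk]; simp [bb, hι])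
    have P : ∀ (u v : ZMod N) (t : K), ∑ j, ∑ m, t * bb 2 α u j * bb 2 α v m *
        (bb 2 α (a + H) (j + H) * bb 2 α (b + H) (m + H)) =
        t * (if u = a then 1 else 0) * (if v = b then 1 else 0) := by
      intro u v t
      rw [← h.orth', ← h.orth', mul_assoc, sum_mul_sum, Finset.mul_sum]
      refine sum_congr rfl fun j _ => ?_
      rw [Finset.mul_sum]
      exact sum_congr rfl fun m _ => by ring
    have E : ∑ j, ∑ m, (∑ c, (bb 2 α (c + (1 + H)) i * bb 2 α c j * bb 2 α c m +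
        bb 2 α c i * bb 2 α (c + (1 + H)) j * bb 2 α c m +
        bb 2 α c i * bb 2 α c j * bb 2 α (c + (1 + H)) m)) *
        (bb 2 α (a + H) (j + H) * bb 2 α (b + H) (m + H)) =
        ∑ c, (bb 2 α (c + (1 + H)) i * (if c = a then 1 else 0) * (if c = b then 1 else 0) +
        bb 2 α c i * (if c + (1 + H) = a then 1 else 0) * (if c = b then 1 else 0) +
        bb 2 α c i * (if c = a then 1 else 0) * (if c + (1 + H) = b then 1 else 0)) := by
      simp only [← P, Finset.sum_mul, add_mul, ← sum_add_distrib]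
      rw [sum_congr rfl fun j _ => Finset.sum_comm, Finset.sum_comm]
    simp only [theta hK h h1 s hw hi] at E
    have e1 : ∀ j m : ZMod N, (i = j + (1 + H) ∧ j = m) ↔ (j = i - (1 + H) ∧ m = i - (1 + H)) :=
      fun j m => ⟨fun ⟨a, b⟩ => ⟨by rw [a]; ring, by rw [a, b]; ring⟩,
        fun ⟨a, b⟩ => ⟨by rw [a]; ring, by rw [a, b]⟩⟩
    have e2 : ∀ j m : ZMod N, (j = i + (1 + H) ∧ i = m) ↔ (j = i + (1 + H) ∧ m = i) :=
      fun j m => by rw [eq_comm (a := i)]
    have e3 : ∀ j m : ZMod N, (m = i + (1 + H) ∧ i = j) ↔ (j = i ∧ m = i + (1 + H)) :=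
      fun j m => by rw [eq_comm (a := i), and_comm]
    simp only [e1, e2, e3] at E
    simp only [add_mul, sum_add_distrib, ite_and, ite_mul, one_mul, zero_mul,
      sum_ite_irrel, Finset.sum_ite_eq', mem_univ, if_true, sum_const_zero, mul_ite, mul_one,
      mul_zero] at E
    have s3 : ∑ x, (if x + (1 + H) = b then if x = a then bb 2 α x i else 0 else 0) =
        if b = a + (1 + H) then bb 2 α a i else 0 := by
      rw [Finset.sum_eq_single a (fun x _ hx => by simp [hx]) (by simp)]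
      simp only [if_true, eq_comm (a := b)]
    have s1 : (if b = a then bb 2 α (b + (1 + H)) i else 0) =
        if a = b then bb 2 α (a + (1 + H)) i else 0 := by
      by_cases e : a = b
      · simp [e]
      · simp [e, Ne.symm e]
    rw [s1, s3] at E
    simp only [eq_comm (b := a)] at E
    linear_combination -E
  rw [key, add_zero, sub_right_inj] at hk
  exact hk.symm

theorem top_cases11 (h : Iso 11 cl H α) {P : MvPolynomial (ZMod N) K} (I : Inv H α P)
    {κ ι : ZMod N} (hκ : α κ ≠ 0) (hι : α ι ≠ 0) (ne : κ ≠ ι) {m₀ : ZMod N →₀ ℕ}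
    (h0 : coeff m₀ P ≠ 0) (top : ∀ m, coeff m P ≠ 0 → degree m ≤ degree m₀) :
    (∀ s, md cl m₀ s ≤ 1) ∨ ∀ i, m₀ i = 1 := by
  rw [or_iff_not_imp_left]
  intro h1
  push Not at h1
  obtain ⟨s, hs⟩ := h1
  have st : ∀ s, 2 ≤ md cl m₀ s → 11 ≤ md cl m₀ (s + 1) := fun s h2 => not_lt.1 fun h1 => ne <| by
    have c := @carry3 _ _ _ _ _ _ _ _ _ _ _ _ hK h _ I _ top _ _ hκ hι ne _ h0 rfl s h2 h1
    by_cases e : cl H = 1
    · simp only [e, if_true, ← add_assoc] at c
      exact mono_of_cubic11 hK h e (s + 1) (fun i j m => @c i j m) hκ hι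
    · have n : ∀ {l j : ZMod N}, cl l = s → cl j = s + cl H → l + 1 ≠ j := fun hl hj e' =>
        e (by rw [← e', map_add, map_one, hl] at hj; exact (add_left_cancel hj).symm)
      refine mono_of_ww h s (fun l j m hl hj hm jm => ?_) hκ hι
      simpa [e] using c (by rw [map_add, map_one, hl]) hj hm (n hl hj) (n hl hm) jm
  have al : ∀ k : ℕ, 11 ≤ md cl m₀ (s + 1 + k) := fun k => by
    induction k with
    | zero => simpa using st s hs
    | succ k ih => rw [Nat.cast_succ, ← add_assoc]; exact st _ (by omega)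
  intro i
  by_contra n
  have := al (cl i - (s + 1)).val
  rw [ZMod.natCast_zmod_val, add_sub_cancel] at this
  exact this.not_gt ((h.pe_lt (I.per m₀ h0).1 _).2 i rfl n)

end Iso

end poly

variable {F K : Type*} [Field F] [Fintype F] [Field K] [Fintype K] [Algebra F K] {σ : F →+* F}
  {q τ : ℕ} {s : K →+* K} {B : K →ₛₗ[σ] K →ₗ[F] F}

/-- Copy `rank3`, `rank3'`, `Iso.mono_of_cubic` (`US7/PD`), `Iso.top_cases` (`US7/PE`), `Iso.fun_of_norm'` (`US7/PEb`, general `r`) and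
`Md.tr_even` (`US7/PF`) with `7 ↦ 11` (names with suffix `11`).  Only `rank3` for `ZMod 11` is new: for `η a ≠ 0 ≠ η b` find a
`4 × 4` minor which is a monomial (differences `3, 4, 5` first, then `2`, then `1`). -/
theorem Md.tr_even11 (M : Md q 11 1 τ s B) (h2 : (2 : F) = 0) {G : Subgroup (K ≃ₗ[F] K)} (O : Ov q τ B G) :
    Tr B G := by
  classical
  obtain ⟨p, e, hp, hc, he, hq⟩ := exists_prime_pow_of_card M.cardF
  obtain rfl : p = 2 := (Nat.prime_dvd_prime_iff_eq hp Nat.prime_two).1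
    ((CharP.cast_eq_zero_iff F p 2).1 (by exact_mod_cast h2))
  haveI : NeZero (2 * e) := ⟨by omega⟩
  haveI : NeZero (2 * e * 11) := ⟨by omega⟩
  haveI : Fact (Nat.Prime 2) := ⟨Nat.prime_two⟩
  obtain ⟨-, cK, hK⟩ := M.pf_char hq
  have hT : τ * (q + 1) = 2 ^ (e * 11) + 1 := by rw [pow_mul, ← hq, ← M.mul, one_mul, mul_comm]
  obtain ⟨g, hg, hn⟩ := SetLike.not_le_iff_exists.1 O.ne
  obtain ⟨α, I, hα, h1⟩ := M.exists_iso hq (O.le hg)
  obtain ⟨κ, ι, hκ, hι, ne⟩ : ∃ κ ι, α κ ≠ 0 ∧ α ι ≠ 0 ∧ κ ≠ ι := by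
    by_contra! h
    exact hn (h1 h)
  intro x y hx hy hB
  obtain ⟨P, p1, p2⟩ := exists_reduced le_rfl hK fun z : K => if ∃ k ∈ G, k x = z then 1 else 0
  have g0 : ∀ (k : K ≃ₗ[F] K) (v : K), v ≠ 0 → k v ≠ 0 := fun k v hv => by simpa using hv
  have inv : ∀ k ∈ G, ∀ v, v ≠ 0 → ev 2 (2 * e * 11) (k v) P = ev 2 (2 * e * 11) v P := fun k hk v hv => by
    rw [p2 _ hv, p2 _ (g0 k v hv)]
    exact if_congr ⟨fun ⟨l, hl, e⟩ => ⟨k⁻¹ * l, mul_mem (inv_mem hk) hl, k.injective (by simpa using e)⟩,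
      fun ⟨l, hl, e⟩ => ⟨k * l, mul_mem hk hl, congrArg k e⟩⟩ rfl rfl
  obtain ⟨φ, hφ⟩ := Iso.fun_of_norm' hK I (fun v hv => hα v ▸ g0 g v hv) hκ hι ne
    (fun _ J _ h0 top => Iso.top_cases11 hK I J hκ hι ne h0 top) (P := P)
    ⟨per_of_inv hK (mul_assoc 2 e 11) p1 fun z v hz hv => inv (mu F K (Units.mk0 z fun h => by simp [h] at hz))
      (O.sc (mu_mem_Sc.2 (Units.ext (by rw [hT]; exact hz)))) v hv, fun m hm => (p1 m hm).2,
      fun v hv => by rw [map_sub, ev_bind hK α hv, hα, inv g hg v hv, sub_self]⟩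
  have := (hφ y hy).trans (by rw [M.ev_Qs_zero hq hy, ← hB, ← M.ev_Qs_zero hq hx, ← hφ x hx])
  rw [p2 _ hx, p2 _ hy, if_pos (c := ∃ k ∈ G, k x = x) ⟨1, one_mem G, rfl⟩] at this
  exact by_contra fun n => zero_ne_one ((if_neg n).symm.trans this)

end Cfsg.Lib.US7
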