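import Cfsg.Agent.Lib.US7.XC

/-! # The torus `A Z` is not self-normalising in a proper overgroup, `n = 11` -/

set_option autoImplicit false
set_option linter.unusedSectionVars false

namespace Cfsg.Lib.US7

open Module Cfsg.Lib.Unitary

/-- `r ∈ {23, 67, 89}`; `24 70 93 116 68 90` are not prime powers, `47` is a prime -/
theorem xc_num11 {r u j : ℕ} (hr : r.Prime) (h : r % 22 = 1) (hu : u.Prime) (h1 : u ^ j ≤ 121)
    (h2 : u ^ j ≡ 1 [MOD r]) : j ≤ 1 := by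
  by_contra n
  have h0 : 1 < u ^ j := Nat.one_lt_pow (by omega) hu.one_lt
  have h3 := (Nat.modEq_iff_dvd' h0.le).1 h2.symm
  have h4 := Nat.le_of_dvd (by omega) h3
  have k : ∀ s t, s.Prime → t.Prime → s ∣ u ^ j → t ∣ u ^ j → s = t := fun s t hs ht e e' =>
    ((Nat.prime_dvd_prime_iff_eq hs hu).1 (hs.dvd_of_dvd_pow e)).trans
      ((Nat.prime_dvd_prime_iff_eq ht hu).1 (ht.dvd_of_dvd_pow e')).symm
  have : r = 1 ∨ r = 23 ∨ r = 45 ∨ r = 67 ∨ r = 89 ∨ r = 111 := by omega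
  rcases this with rfl | rfl | rfl | rfl | rfl | rfl
  · exact Nat.not_prime_one hr
  · have e : u ^ j = 24 ∨ u ^ j = 47 ∨ u ^ j = 70 ∨ u ^ j = 93 ∨ u ^ j = 116 := by omega
    rcases e with e | e | e | e | e
    · exact absurd (k 2 3 (by decide) (by decide) (by omega) (by omega)) (by decide)
    · have := ((by norm_num : Nat.Prime 47).pow_eq_iff.1 e).2
      omega
    · exact absurd (k 2 5 (by decide) (by decide) (by omega) (by omega)) (by decide)
    · exact absurd (k 3 31 (by decide) (by norm_num) (by omega) (by omega)) (by decide)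
    · exact absurd (k 2 29 (by decide) (by norm_num) (by omega) (by omega)) (by decide)
  · exact absurd hr (by norm_num)
  · have e : u ^ j = 68 := by omega
    exact absurd (k 2 17 (by decide) (by norm_num) (by omega) (by omega)) (by decide)
  · have e : u ^ j = 90 := by omega
    exact absurd (k 2 3 (by decide) (by decide) (by omega) (by omega)) (by decide)
  · exact absurd hr (by norm_num)

variable {F K : Type*} [Field F] [Fintype F] [Field K] [Fintype K] [Algebra F K] {σ : F →+* F}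
  {q d τ : ℕ} {s : K →+* K} {B : K →ₛₗ[σ] K →ₗ[F] F}

open Subgroup in
/-- Copy of `Md.fr_mem_of_ov` (`7 ↦ 11`, `14 ↦ 22`).  New last step: `Z.relIndex E = u ^ i` with `i ≤ 1`, so `E / (Z ⊓ E)`
is cyclic, `E` is abelian (`commutative_of_cyclic_center_quotient`), and `ab`, `cx` give `E ≤ Z`. -/
theorem Md.fr_mem11 (h : Md q 11 d τ s B) {G : Subgroup (K ≃ₗ[F] K)} (O : Ov q τ B G) :
    fr F K ∈ G := by
  refine (h.frob_or O).resolve_right fun hN => ?_
  classical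
  have : FiniteDimensional F K := Module.Finite.of_finite
  have : Finite (K ≃ₗ[F] K) := Finite.of_injective _ DFunLike.coe_injective
  obtain ⟨r, hr, hrτ⟩ := Nat.exists_prime_and_dvd h.toNm.one_lt.ne'
  have : Fact r.Prime := ⟨hr⟩
  have r14 : r % 22 = 1 := (h.toNm.prime_mod hr hrτ).1
  obtain ⟨m, hm, cop⟩ := h.hall O
  have c1 : Nat.Coprime τ (q ^ 2 - 1) := h.toNm.cop.1
  have q1 : q + 1 ∣ q ^ 2 - 1 := ⟨q - 1, by simpa using Nat.sq_sub_sq q 1⟩
  have c2 : Nat.Coprime τ (q + 1) := c1.coprime_dvd_right q1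
  have nz : ∀ y ∈ Sc F K τ, y ≠ 1 → y ^ (q ^ 2 - 1) ≠ 1 := fun y hy y1 e =>
    y1 (by simpa [c1.gcd_eq_one] using pow_gcd_eq_one.2 ⟨pow_of_mem_Sc hy, e⟩)
  let A : Subgroup G := (Sc F K τ).subgroupOf G
  have cA : Nat.card A = τ := (Nat.card_congr (subgroupOfEquivOfLe (h.A_le O)).toEquiv).trans h.card_A
  have iA : A.index = m := Nat.eq_of_mul_eq_mul_left h.toNm.one_lt.le (by
    rw [← hm, ← A.card_mul_index, cA])
  obtain ⟨R0⟩ : Nonempty (Sylow r A) := inferInstance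
  let R : Sylow r G := (R0.isPGroup'.map A.subtype).toSylow (by
    rw [index_map_subtype, iA]
    exact fun e => (hr.dvd_mul.1 e).elim R0.not_dvd_index
      ((hr.coprime_iff_not_dvd.1 (cop.coprime_dvd_left hrτ))))
  have RA : (R : Subgroup G) ≤ A := map_subtype_le _
  obtain ⟨x, ox⟩ := exists_prime_orderOf_dvd_card' (G := R) r (by
    have := (R : Subgroup G).card_mul_index
    rw [hm] at this
    exact (hr.dvd_mul.1 (this ▸ hrτ.mul_right m)).resolve_right R.not_dvd_index)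
  have xA : (x.1.1 : K ≃ₗ[F] K) ∈ Sc F K τ := RA x.2
  have x1 : (x.1.1 : K ≃ₗ[F] K) ≠ 1 := fun e => by
    rw [show x = 1 from Subtype.ext (Subtype.ext e), orderOf_one] at ox
    exact hr.one_lt.ne ox
  have xr : (x.1.1 : K ≃ₗ[F] K) ^ r = 1 := by
    rw [← coe_pow, ← coe_pow, show x ^ r = 1 from orderOf_dvd_iff_pow_eq_one.1 ox.dvd]; rfl
  obtain ⟨u, hu, hd⟩ : ∃ u : ℕ, u.Prime ∧ ¬ m.factorization u ≤ (q + 1).factorization u := by
    by_contra! k
    have m0 : m ≠ 0 := iA ▸ index_ne_zero_of_finite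
    have := Nat.le_of_dvd q.succ_pos ((Nat.factorization_prime_le_iff_dvd m0 q.succ_ne_zero).1 k)
    refine O.ne ((eq_of_le_of_card_ge O.sc ?_).ge.trans (Sc_le_Nn _))
    rw [hm, h.card_AZ]
    exact Nat.mul_le_mul_left _ this
  have : Fact u.Prime := ⟨hu⟩
  have um : u ∣ m := Nat.dvd_of_factorization_pos (by omega)
  have uτ : Nat.Coprime u τ := (cop.coprime_dvd_right um).symm
  obtain ⟨U, U1, U2, U3⟩ := xc_syl (u := u) (fun e => hu.coprime_iff_not_dvd.1 uτ (e ▸ hrτ))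
    R fun g hg y hy => Subtype.ext (Sc_comm (RA hy) (hN ⟨g.2, h.ti xA (nz _ xA x1)
      (RA ((mem_normalizer_iff.1 hg x.1).1 x.2))⟩))
  let Z : Subgroup G := (Sc F K (q + 1)).subgroupOf G
  have Zs : ∀ z ∈ Z, ∃ c : F, ∀ v, (z : K ≃ₗ[F] K) v = c • v := fun z hz => by
    obtain ⟨c, hc⟩ := (h.range_scl.ge hz : (z : K ≃ₗ[F] K) ∈ (scl q F K).range)
    exact ⟨((c : Fˣ) : F), fun v => hc ▸ rfl⟩
  have Zc : Z ≤ center G := fun z hz => mem_center_iff.2 fun g => Subtype.ext (LinearEquiv.ext fun v => by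
    obtain ⟨c, hc⟩ := Zs z hz
    change g.1 (z.1 v) = z.1 (g.1 v)
    rw [hc, hc, map_smul])
  have cZ : Nat.card Z = q + 1 := by
    rw [Nat.card_congr (subgroupOfEquivOfLe ((Sc_mono (dvd_mul_left _ _)).trans O.sc)).toEquiv,
      ← h.range_scl, ← Nat.card_congr (MonoidHom.ofInjective h.scl_inj).toEquiv, h.card_mu]
  have UZ : ¬ U ≤ Z := fun e => hd (by
    have e1 := (U1.toSylow U2).card_eq_multiplicity
    have e2 := card_dvd_of_le e
    rw [cZ] at e2
    change Nat.card U = _ at e1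
    rw [e1, hm, Nat.factorization_mul (by have := h.toNm.one_lt; omega) (iA ▸ index_ne_zero_of_finite),
      Finsupp.add_apply, Nat.factorization_eq_zero_of_not_dvd (hu.coprime_iff_not_dvd.1 uτ), zero_add] at e2
    exact (hu.pow_dvd_iff_le_factorization q.succ_ne_zero).1 e2)
  obtain ⟨E, EU, EZ, hE⟩ := xc_cent U1 Zc UZ
  have cx : ∀ e ∈ U, x.1 * e = e * x.1 → e ∈ Z := fun e he hc => by
    obtain ⟨w, hw⟩ := h.cent (g := e.1) xA (nz _ xA x1) (congrArg Subtype.val hc.symm)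
    obtain ⟨w', h1, h2⟩ := mem_Sc.1 (hw ▸ h.mu_mem O (hw ▸ e.2) : e.1 ∈ Sc F K (τ * (q + 1)))
    obtain ⟨k, hk⟩ := U1 ⟨e, he⟩
    refine mem_Sc.2 ⟨w', ?_, h2⟩
    have e1 : e.1 = mu F K w' := LinearEquiv.ext h2
    have h3 : w' ^ u ^ k = 1 := Units.ext (by
      have := congrArg (fun g : U => (g.1.1 : K ≃ₗ[F] K) 1) hk
      simp only [coe_pow, e1, ← map_pow, mu_apply] at this
      simpa using this)
    exact orderOf_dvd_iff_pow_eq_one.1 (Nat.Coprime.dvd_of_dvd_mul_left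
      ((uτ.pow_left k).coprime_dvd_left (orderOf_dvd_of_pow_eq_one h3)) (orderOf_dvd_of_pow_eq_one h1))
  have xU : ∀ g, g ∈ U ↔ x.1 * g * x.1⁻¹ ∈ U := mem_normalizer_iff.1 (U3 x.2)
  have xE : ∀ e ∈ E, x.1 * e * x.1⁻¹ ∈ E := fun e he => (hE _).2 ⟨(xU e).1 (EU he), fun g hg => by
    have h1 := ((hE e).1 he).2 (x.1⁻¹ * g * x.1) ((xU _).2 (by simpa [mul_assoc] using hg))
    have h2 := mem_center_iff.1 (Zc h1) x.1
    rw [show x.1 * e * x.1⁻¹ * g * (x.1 * e * x.1⁻¹)⁻¹ * g⁻¹ =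
      x.1 * (e * (x.1⁻¹ * g * x.1) * e⁻¹ * (x.1⁻¹ * g * x.1)⁻¹) * x.1⁻¹ by group, h2, mul_inv_cancel_right]
    exact h1⟩
  have ab := comm_of_ab hr xr (by rw [h.rank]; have := hr.two_le; omega) (h.xc_irr xA (nz _ xA x1))
    (E := (E ⊓ centralizer (E : Set G)).map G.subtype) (by
      rintro _ ⟨a, ha, rfl⟩ _ ⟨b, hb, rfl⟩
      exact congrArg Subtype.val (hb.2 a ha.1)) (by
      rintro _ ⟨a, ha, rfl⟩
      refine ⟨x.1 * a * x.1⁻¹, ⟨xE a ha.1, fun b hb => ?_⟩, rfl⟩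
      have n : x.1 ∈ normalizer (E : Set G) := mem_normalizer_fintype xE
      have := ha.2 _ ((mem_normalizer_iff.1 (inv_mem n) b).1 hb)
      rw [show b * (x.1 * a * x.1⁻¹) = x.1 * (x.1⁻¹ * b * x.1⁻¹⁻¹ * a) * x.1⁻¹ by group, this]
      group)
  have le := relIndex_le (E := E.map G.subtype) (Z := Z.map G.subtype) (by
      rintro _ ⟨a, ha, rfl⟩ _ ⟨b, hb, rfl⟩
      obtain ⟨c, hc⟩ := Zs _ (((hE a).1 ha).2 b (EU hb))
      exact ⟨c, fun v => by simpa using hc (b.1 (a.1 v))⟩) (by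
      rintro _ ⟨a, ha, rfl⟩ hc
      exact ⟨a, cx a (EU ha) (Subtype.ext (ab _ ⟨a, ⟨ha, fun b hb =>
        Subtype.ext (hc _ ⟨b, hb, rfl⟩).symm⟩, rfl⟩)), rfl⟩)
  rw [relIndex_map_map_of_injective _ _ (subtype_injective G), h.rank] at le
  obtain ⟨j, hj⟩ := IsPGroup.iff_card.1 (U1.to_le EU)
  obtain ⟨i, -, hi⟩ := (Nat.dvd_prime_pow hu).1 (hj ▸ relIndex_dvd_card Z E)
  have md := Transfer.card_modEq_card_inf_centralizer (q := r) (A := zpowers x.1) (T := E)
    (R.isPGroup'.to_le (zpowers_le.2 x.2)) (zpowers_le.2 (mem_normalizer_fintype xE))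
  have e1 : E ⊓ centralizer (zpowers x.1 : Set G) = Z ⊓ E := le_antisymm
    (fun e he => ⟨cx e (EU he.1) (he.2 _ (mem_zpowers _)), he.1⟩)
    fun e he => ⟨he.2, fun g _ => mem_center_iff.1 (Zc he.1) g⟩
  have e2 : Nat.card ↥(Z ⊓ E) * Z.relIndex E = Nat.card E := Coprime.card_inf_mul_relIndex _ _
  rw [e1, ← e2, hi] at md
  have c3 : Nat.Coprime r (Nat.card ↥(Z ⊓ E)) :=
    (c2.coprime_dvd_left hrτ).coprime_dvd_right (cZ ▸ card_dvd_of_le inf_le_left)
  have md' : u ^ i ≡ 1 [MOD r] := Nat.ModEq.cancel_left_of_coprime c3 (by simpa using md)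
  have i1 : i ≤ 1 := xc_num11 hr r14 hu (hi ▸ le) md'
  have Zn : (Z.subgroupOf E).Normal := ⟨fun z hz g => by
    rw [mem_subgroupOf] at hz ⊢
    rw [coe_mul, coe_mul, mem_center_iff.1 (Zc hz) g, coe_inv, mul_inv_cancel_right]
    exact hz⟩
  have cy : IsCyclic (E ⧸ Z.subgroupOf E) := isCyclic_of_card_dvd_prime (p := u) (by
    have : Nat.card (E ⧸ Z.subgroupOf E) = u ^ i := hi
    rw [this]
    exact (pow_dvd_pow u i1).trans (pow_one u).dvd)
  have cm := (QuotientGroup.mk' (Z.subgroupOf E)).isMulCommutative_of_isCyclic_of_ker_le_center (by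
    rw [QuotientGroup.ker_mk']
    exact fun z hz => mem_center_iff.2 fun g => Subtype.ext (mem_center_iff.1 (Zc hz) g))
  exact EZ fun a ha => cx a (EU ha) (Subtype.ext (ab _ ⟨a, ⟨ha, fun b hb =>
    congrArg Subtype.val (cm.is_comm.comm (⟨b, hb⟩ : E) ⟨a, ha⟩)⟩, rfl⟩))

end Cfsg.Lib.US7
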