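import Cfsg.Agent.Lib.US11.W2
import Cfsg.Agent.Lib.US11.XC
import Cfsg.Agent.Lib.US11.PE
import Cfsg.Agent.Lib.US11.Num
import Cfsg.Agent.Lib.US11.Dio

/-! # Overgroups of the Singer normaliser in `GU₁₁(q)` have the orbits of `GU₁₁(q)` -/

set_option autoImplicit false
set_option linter.unusedSectionVars false

namespace Cfsg.Lib.US7

open Module Cfsg.Lib.Unitary Cfsg.Lib.CKS Cfsg.Lib.Char LinearMap

variable {F K : Type*} [Field F] [Fintype F] [Field K] [Fintype K] [Algebra F K] {σ : F →+* F}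
  {q d τ : ℕ} {s : K →+* K} {B : K →ₛₗ[σ] K →ₗ[F] F}

namespace Md

/-- as `tr_min` -/
theorem tr_min11 (M : Md q 11 d τ s B) (q3 : 3 ≤ q) {m : ℕ} {ρ : UG B →* End ℂ (Fin m → ℂ)}
    {ω₀ : IrrCharacter (Mu q F)} (S : WP M ρ ω₀) {G : Subgroup (K ≃ₗ[F] K)} (O : Ov q τ B G)
    (hmin : ∀ X ≤ G, Sc F K (τ * (q + 1)) ≤ X → X ≤ Nn F K ∨ X = G) : Tr B G := by
  have := md_fin (F := F) (K := K)
  have := Fintype.ofFinite G
  obtain ⟨p, f, hp, hc, -, hq⟩ := exists_prime_pow_of_card M.cardF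
  obtain ⟨b1, b2⟩ := M.toNm.big11 q3
  obtain ⟨t, ht⟩ := M.ts O hmin (M.fr_mem11 O) b1
  have cA : Nat.card ((Sc F K τ).subgroupOf G) = τ := by rw [md_card, inf_eq_right.2 (M.A_le O), M.card_A]
  have := Fintype.ofFinite ((Sc F K τ).subgroupOf G)
  have dc := M.d_cases
  have T : TW (sclG (M.scl_mem O)) ((Sc F K τ).subgroupOf G) (th ρ O.le) ω₀ 11 d :=
    ⟨fun a b e => M.scl_inj (congrArg Subtype.val e), th_char _, by
      rw [th, map_one, trace_one, S.dim, cA, M.card_mu, mul_comm]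
      exact_mod_cast M.mul.symm,
    fun x hx c e => S.val c x.1 _ hx rfl fun e' =>
      e (Subgroup.inclusion_injective O.le (e'.trans (map_one _).symm)),
    by omega, by omega, by rwa [cA]⟩
  have hG : Nat.card G ∣ guOrder q 11 := by
    have := Subgroup.card_dvd_of_le O.le
    rwa [M.herm.card_UG M.bar, M.rank] at this
  obtain ⟨h0, hs⟩ := TW.split ht T (fun χ k a a1 a2 ak k7 e => by
    rcases dc with rfl | ⟨rfl, d7⟩
    · omega
    rw [cA, χ.2.apply_one_eq] at e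
    exact dio11 hp hq M.toNm (le_of_pp11 hp hq d7) a1 (by nlinarith) ak k7 (by exact_mod_cast e)
      (χ.2.charDegree_dvd_card.trans hG)) fun h0 χ k k1 k7 e => by
    rcases dc with rfl | ⟨rfl, d7⟩
    · omega
    obtain ⟨r, a, hr, r49, rd, ro⟩ := exists_big11 d7 (le_of_pp11 hp hq d7)
    have e1 : (11 * τ : ℤ) = 1 + (q ^ 4 + q ^ 3 + q ^ 2 + q + 1) * (q * (q - 1) * (q ^ 4 - q ^ 3 + q ^ 2 - q + 1)) := by
      have : ((q : ℤ) + 1) * (11 * τ) = q ^ 11 + 1 := by exact_mod_cast M.mul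
      exact mul_left_cancel₀ (show (q : ℤ) + 1 ≠ 0 by omega) (by linear_combination this)
    obtain ⟨u, hu⟩ : ((r ^ a : ℕ) : ℤ) ∣ 11 * τ - 1 := by
      rw [e1, add_sub_cancel_left]
      exact Dvd.dvd.mul_right (by exact_mod_cast rd) _
    have e2 : cp (sclG (M.scl_mem O)) (th ρ O.le) ω₀.1 1 = (11 * τ - 1 : ℕ) := by
      rw [cp_th M.bar, map_one, mul_one, S.pj, Nat.cast_sub (by omega), Nat.cast_one]
    obtain ⟨D, m, hD, e3⟩ := deg_mod M.bar M.herm M.rank (by norm_num) hr ro O.le (a := a)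
      (Dvd.dvd.trans (by zify [show 1 ≤ 11 * τ by omega]; exact ⟨u, by exact_mod_cast hu⟩)
        (h0.degree_dvd_card e2)) r49 χ
    rw [e, cA] at e3
    have e4 : (k * τ : ℤ) = m * (r ^ a : ℕ) + D := by exact_mod_cast e3
    have e5 := Int.eq_zero_of_abs_lt_dvd (m := (r ^ a : ℕ)) (x := k - 11 * D) ⟨11 * m - k * u, by
      linear_combination 11 * e4 - k * hu⟩ (by rw [abs_le] at hD; rw [abs_lt]; omega)
    omega
  obtain ⟨m, hm, cop⟩ := M.hall O
  refine S.tr (M.fr_mem11 O) (fun x hx v v0 e => Subtype.ext (eq_one_of_mem_Sc hx v0 e)) (cA.symm ▸ M.one_lt)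
    (hm.trans (congrArg (· * m) cA.symm)) ?_ (M.alpha O hmin) h0 hs
  rw [cA]
  exact ((M.cop.2.2.mul_right cop).mul_right M.copZ).mul_right M.cop'

theorem tr11' (M : Md q 11 d τ s B) {G : Subgroup (K ≃ₗ[F] K)} (O : Ov q τ B G) : Tr B G := by
  have key : 3 ≤ q → (∃ (m : ℕ) (ρ : UG B →* End ℂ (Fin m → ℂ)) (ω₀ : IrrCharacter (Mu q F)), WP M ρ ω₀) →
      Tr B G := fun q3 ⟨_, _, _, S⟩ x y hx hy e => by
    obtain ⟨Y, hY, O', hmin⟩ := Md.exists_min O
    obtain ⟨g, hg, e⟩ := M.tr_min11 q3 S O' hmin x y hx hy e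
    exact ⟨g, hY hg, e⟩
  by_cases h2 : (2 : F) = 0
  · rcases M.d_cases with rfl | ⟨-, d11⟩
    · exact M.tr_even11 h2 O
    · exact key (by omega) (M.wp_two h2 d11)
  · obtain ⟨p, f, hp, hc, -, hq⟩ := exists_prime_pow_of_card M.cardF
    obtain ⟨q', oq⟩ : Odd q := hq ▸ (hp.odd_of_ne_two (by rintro rfl; exact h2 (CharP.cast_eq_zero F 2))).pow
    exact key (by have := M.two; omega) (M.wp_odd h2)

end Md

end Cfsg.Lib.US7
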