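import Cfsg.Agent.Lib.US7.GB

/-!
# Subgroups of `GU₁₁(q)` with the same orbits on vectors: definitions
-/

set_option autoImplicit false

namespace Cfsg.Lib.US11

open Module Cfsg.Lib.Unitary Cfsg.Lib.US7

variable {F V : Type*} [Field F] [AddCommGroup V] [Module F V] {σ : F →+* F}

/-- the invariant maximal totally isotropic subspace `U`, `U^⊥ = U ⊕ F w`, `P` transitive on `w + U` -/
structure Fr (B : V →ₛₗ[σ] V →ₗ[F] F) (m : ℕ) (P : Subgroup (V ≃ₗ[F] V)) (U : Submodule F V) (w : V) :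
    Prop where
  iso : U ≤ perp B U
  inv : ∀ g ∈ P, ∀ u ∈ U, g u ∈ U
  rank : finrank F U = m
  wp : w ∈ perp B U
  w0 : B w w ≠ 0
  span : ∀ x ∈ perp B U, ∃ c : F, x - c • w ∈ U
  fix : ∀ g ∈ P, g w - w ∈ U
  tr : ∀ u ∈ U, ∃ g ∈ P, g w = w + u

/-- no translations -/
def TF (P : Subgroup (V ≃ₗ[F] V)) (U : Submodule F V) (w : V) : Prop :=
  ∀ t ∈ P, (∀ u ∈ U, t u = u) → t w = w

/-- the plane `⟨e, a⟩` is isomorphic to `U^⊥ / (U ⊓ ker ψ)` -/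
structure St (P : Subgroup (V ≃ₗ[F] V)) (U : Submodule F V) (w e a : V) (ψ : V →ₗ[F] F) : Prop where
  eU : e ∈ U
  e0 : e ≠ 0
  aU : a ∈ U
  fe : ∀ g ∈ P, g e = e
  fp : ∀ g ∈ P, ∀ u ∈ U, ψ (g u) = ψ u
  ne : ∃ u ∈ U, ψ u = 1
  fa : ∀ g ∈ P, g a = a + ψ (g w - w) • e

/-- no transvections -/
def NTv (B : V →ₛₗ[σ] V →ₗ[F] F) (G : Subgroup (V ≃ₗ[F] V)) : Prop :=
  ∀ s ∈ G, ∀ (x : V) (c : F), B x x = 0 → (∀ v, s v = v + (c * B x v) • x) → c = 0 ∨ x = 0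

/-- the global situation -/
structure GS (B : V →ₛₗ[σ] V →ₗ[F] F) (q p m : ℕ) (G : Subgroup (V ≃ₗ[F] V)) : Prop where
  bar : IsBar q σ
  herm : IsHerm σ B
  rank : finrank F V = 2 * m + 1
  prime : p.Prime
  char : (p : F) = 0
  le : G ≤ UG B
  tr : Tr B G
  nt : NTv B G

/-- Sylow subgroups of a subgroup -/
structure Syl {H : Type*} [Group H] (p : ℕ) (G P : Subgroup H) : Prop where
  le : P ≤ G
  pg : IsPGroup p P
  nd : ¬ p ∣ P.relIndex G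

/-- elements of `P` acting trivially on `S` modulo `Y` -/
def Kv (P : Subgroup (V ≃ₗ[F] V)) (S : Set V) (Y : Submodule F V) (hY : ∀ g ∈ P, ∀ y ∈ Y, g y ∈ Y) :
    Subgroup (V ≃ₗ[F] V) where
  carrier := {g | g ∈ P ∧ ∀ u ∈ S, g u - u ∈ Y}
  one_mem' := ⟨one_mem _, fun u _ => by simp⟩
  mul_mem' := fun {g k} hg hk => ⟨mul_mem hg.1 hk.1, fun u hu => by
    have := add_mem (hY g hg.1 _ (hk.2 u hu)) (hg.2 u hu)
    rwa [map_sub, sub_add_sub_cancel] at this⟩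
  inv_mem' := fun {g} hg => ⟨inv_mem hg.1, fun u hu => by
    have := neg_mem (hY _ (inv_mem hg.1) _ (hg.2 u hu))
    rwa [map_sub, neg_sub, show g⁻¹ (g u) = u from g.symm_apply_apply u] at this⟩

theorem mem_Kv {P : Subgroup (V ≃ₗ[F] V)} {S : Set V} {Y : Submodule F V} {hY : ∀ g ∈ P, ∀ y ∈ Y, g y ∈ Y}
    {g : V ≃ₗ[F] V} : g ∈ Kv P S Y hY ↔ g ∈ P ∧ ∀ u ∈ S, g u - u ∈ Y := Iff.rfl

theorem NTv.mono {B : V →ₛₗ[σ] V →ₗ[F] F} {G P : Subgroup (V ≃ₗ[F] V)} (h : NTv B G) (l : P ≤ G) :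
    NTv B P := fun s hs => h s (l hs)

end Cfsg.Lib.US11
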