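import Cfsg.Agent.Lib.US7.Dio

/-! # Bezout certificates for `GU₁₁(q)`: tools -/

set_option autoImplicit false

namespace Cfsg.Lib.US7

/-- sum of polynomials -/
def pAdd : List ℤ → List ℤ → List ℤ
  | [], l => l
  | a :: l, [] => a :: l
  | a :: l, b :: m => (a + b) :: pAdd l m

/-- product of polynomials -/
def pMul : List ℤ → List ℤ → List ℤ
  | [], _ => []
  | a :: l, m => pAdd (m.map (a * ·)) (0 :: pMul l m)

theorem ev_pAdd (x : ℤ) : ∀ l m, dioEv x (pAdd l m) = dioEv x l + dioEv x m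
  | [], l => by simp [pAdd, dioEv]
  | a :: l, [] => by simp [pAdd, dioEv]
  | a :: l, b :: m => by simp only [pAdd, dioEv, ev_pAdd x l m]; ring

theorem ev_map (x a : ℤ) : ∀ m : List ℤ, dioEv x (m.map (a * ·)) = a * dioEv x m
  | [] => by simp [dioEv]
  | b :: m => by simp only [List.map, dioEv, ev_map x a m]; ring

theorem ev_pMul (x : ℤ) (m : List ℤ) : ∀ l, dioEv x (pMul l m) = dioEv x l * dioEv x m
  | [] => by simp [pMul, dioEv]
  | a :: l => by simp only [pMul, ev_pAdd, ev_map, dioEv, ev_pMul x m l]; ring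

theorem ev_all (x : ℤ) : ∀ l : List ℤ, l.all (· == 0) = true → dioEv x l = 0
  | [], _ => rfl
  | a :: l, h => by
    simp only [List.all_cons, Bool.and_eq_true, beq_iff_eq] at h
    simp [dioEv, h.1, ev_all x l h.2]

/-- the `q'`-part of `|GU₁₁(x)|` -/
def pC : List ℤ :=
    [-1, -1, 1, 0, 0, 1, 0, 1, 0, 0, 0, 0, 0, 0, 1, -2, 1, 0, 0, 1, -1, 1, -2, 1, -1, 0, -1, -2, 2, -2, 2, -1, 1, 0, -1, 1, -2, 2, -2, 2, 1, 0, 1, -1,
    2, -1, 1, -1, 0, 0, -1, 2, -1, 0, 0, 0, 0, 0, 0, -1, 0, -1, 0, 0, -1, 1, 1]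

/-- Bezout identity `u P + v C = R` -/
def bzk (P u v : List ℤ) (R : ℕ) : Bool := (pAdd (pAdd (pMul u P) (pMul v pC)) [-(R : ℤ)]).all (· == 0)

theorem bzk_dvd {P u v : List ℤ} {R : ℕ} (h : bzk P u v R = true) {x c : ℤ} (hC : dioEv x P ∣ c * dioEv x pC) :
    dioEv x P ∣ c * R := by
  have := ev_all x _ h
  simp only [ev_pAdd, ev_pMul, dioEv, mul_zero, add_zero, add_neg_eq_zero] at this
  rw [← this, mul_add, mul_left_comm c (dioEv x v)]
  exact dvd_add ((dvd_mul_left _ _).mul_left c) (hC.mul_left _)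

/-- binary loop -/
def lp (f : ℕ → Bool) : ℕ → ℕ → Bool
  | 0, s => f s
  | d + 1, s => lp f d (2 * s) && lp f d (2 * s + 1)

theorem lp_spec (f : ℕ → Bool) : ∀ d s, lp f d s = true → ∀ j < 2 ^ d, f (s * 2 ^ d + j) = true
  | 0, s, h, j, hj => by simpa [show j = 0 by omega, lp] using h
  | d + 1, s, h, j, hj => by
    simp only [lp, Bool.and_eq_true] at h
    by_cases c : j < 2 ^ d
    · simpa only [pow_succ', mul_assoc, mul_left_comm s] using lp_spec f d _ h.1 j c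
    · have := lp_spec f d _ h.2 (j - 2 ^ d) (by omega)
      rwa [show (2 * s + 1) * 2 ^ d + (j - 2 ^ d) = s * 2 ^ (d + 1) + j by rw [add_mul, pow_succ', ← mul_assoc, mul_comm s]; omega]
        at this

/-- the complete check for a pair `(k, a)` -/
def chk (k a : ℕ) (u v : List ℤ) (R d : ℕ) : Bool :=
  bzk [k - 11 * a, -k, k, -k, k, -k, k, -k, k, -k, k] u v R && 0 < R &&
    11 * (11 * a - k) * R < k * ((11 * 2 ^ d + 32) ^ 9 * (11 * 2 ^ d + 31)) &&
    lp (fun s => 11 * (11 * a - k) * R % (k * (((11 * s + 32) ^ 11 + 1) / (11 * s + 33)) - 11 * a) != 0) d 0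

theorem chk_aux (x : ℕ) : (x + 33) * ((x + 32) ^ 9 * (x + 31) + 33) ≤ (x + 32) ^ 11 + 1 := by
  have : (x + 32) ^ 3 ≤ (x + 32) ^ 9 := Nat.pow_le_pow_right (by omega) (by omega)
  have e : (x + 32) ^ 11 = (x + 33) * ((x + 32) ^ 9 * (x + 31)) + (x + 32) ^ 9 := by ring
  have : 33 * (x + 33) ≤ (x + 32) ^ 3 := by nlinarith [Nat.zero_le (x ^ 3), Nat.zero_le (x ^ 2)]
  rw [e, mul_add]
  omega

theorem chk_spec {k a : ℕ} {u v : List ℤ} {R d : ℕ} (h : chk k a u v R d = true) (c0 : k < 11 * a) (a3 : a ≤ 3 * k)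
    {s T D : ℕ} (hT : (11 * s + 33) * T = (11 * s + 32) ^ 11 + 1) (hD : 11 * D + 11 * a = k * T)
    (hd : (D : ℤ) ∣ (11 * a - k) * dioEv (11 * s + 32) pC) : False := by
  simp only [chk, Bool.and_eq_true, decide_eq_true_eq] at h
  obtain ⟨⟨⟨h1, h2⟩, h3⟩, h4⟩ := h
  have e : dioEv (11 * s + 32) [k - 11 * a, -k, k, -k, k, -k, k, -k, k, -k, k] = 11 * D := by
    refine mul_left_cancel₀ (show (11 * s + 33 : ℤ) ≠ 0 by omega) ?_
    zify at hT hD
    simp only [dioEv]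
    linear_combination -k * hT - (11 * s + 33) * hD
  have d1 := bzk_dvd h1 (x := 11 * s + 32) (c := 11 * (11 * a - k)) (by
    rw [e, mul_assoc]; exact mul_dvd_mul_left _ hd)
  have d2 : 11 * D ∣ 11 * (11 * a - k) * R := by
    zify [c0.le]
    exact e ▸ d1
  by_cases c : s < 2 ^ d
  · have := lp_spec _ _ _ h4 s c
    rw [zero_mul, zero_add, ← hT, Nat.mul_div_cancel_left _ (by omega), ← hD, Nat.add_sub_cancel,
      Nat.mod_eq_zero_of_dvd d2] at this
    simp at this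
  have d3 := Nat.le_of_dvd (by have := Nat.sub_pos_of_lt c0; positivity) d2
  have b1 : (11 * 2 ^ d + 32) ^ 9 * (11 * 2 ^ d + 31) ≤ (11 * s + 32) ^ 9 * (11 * s + 31) :=
    Nat.mul_le_mul (Nat.pow_le_pow_left (by omega) _) (by omega)
  have b2 : (11 * s + 32) ^ 9 * (11 * s + 31) + 33 ≤ T :=
    Nat.le_of_mul_le_mul_left ((chk_aux (11 * s)).trans hT.ge) (show 0 < 11 * s + 33 by omega)
  have b3 := (Nat.mul_le_mul_left k ((Nat.add_le_add_right b1 33).trans b2)).trans hD.ge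
  rw [mul_add] at b3
  generalize k * ((11 * 2 ^ d + 32) ^ 9 * (11 * 2 ^ d + 31)) = X at h3 b3
  generalize 11 * (11 * a - k) * R = Y at h3 d3
  clear * - h3 b3 d3 a3
  omega

end Cfsg.Lib.US7
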