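import Cfsg.Agent.Lib.US11.Def

/-!
# Sylow subgroups of a group with the orbits of the unitary group (pieces of `US7.goalB`)
-/

set_option autoImplicit false

namespace Cfsg.Lib.US11

open Module Cfsg.Lib.Unitary Cfsg.Lib.US7

section

variable {H : Type*} [Group H] [Finite H] {p : ℕ} {G P D : Subgroup H}

/-- a `p`-subgroup lies in a Sylow subgroup (`IsPGroup.exists_le_sylow` in `G`, map by `G.subtype`) -/
theorem exists_syl (hp : p.Prime) (hD : IsPGroup p D) (l : D ≤ G) : ∃ P, Syl p G P ∧ D ≤ P := by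
  have := Fact.mk hp
  obtain ⟨S, hS⟩ := (hD.comap_subtype (K := G)).exists_le_sylow
  refine ⟨S.1.map G.subtype, ⟨Subgroup.map_subtype_le _, S.isPGroup'.map _, ?_⟩, fun x hx => ⟨⟨x, l hx⟩, hS hx, rfl⟩⟩
  rw [Subgroup.relIndex, Subgroup.subgroupOf, Subgroup.comap_map_eq_self_of_injective G.subtype_injective]
  exact S.not_dvd_index

/-- `P.subgroupOf O` as a `Sylow` for `P ≤ O ≤ G` (`IsPGroup.toSylow`) -/
theorem Syl.sylow (hp : p.Prime) (S : Syl p G P) {O : Subgroup H} (h1 : P ≤ O) (h2 : O ≤ G) :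
    ∃ S' : Sylow p O, (S' : Subgroup O) = P.subgroupOf O := by
  have := Fact.mk hp
  exact ⟨(S.pg.comap_subtype (K := O)).toSylow fun d =>
    S.nd (Subgroup.relIndex_mul_relIndex P O G h1 h2 ▸ Dvd.dvd.mul_right d _), rfl⟩

/-- a proper subgroup of a `p`-subgroup is not Sylow -/
theorem Syl.eq_of_le (hp : p.Prime) (S : Syl p G D) (hP : IsPGroup p P) (l : D ≤ P) (l' : P ≤ G) :
    D = P := by
  obtain ⟨S', e⟩ := S.sylow hp l l'
  exact le_antisymm l (Subgroup.subgroupOf_eq_top.1 (e ▸ (S'.is_maximal' (hP.to_subgroup ⊤) le_top).symm))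

end

variable {F V : Type*} [Field F] [AddCommGroup V] [Module F V] [Finite V] {σ : F →+* F} {q p m : ℕ}
  {B : V →ₛₗ[σ] V →ₗ[F] F} {G P : Subgroup (V ≃ₗ[F] V)} {U : Submodule F V} {w : V}

omit [Finite V] in
theorem GS.pow (h : GS B q p m G) : ∃ f, q = p ^ f := by
  have := h.bar.finite
  have := Fintype.ofFinite F
  obtain ⟨r, f, hr, _, -, hq⟩ := exists_prime_pow_of_card (Nat.card_eq_fintype_card.symm.trans h.bar.card)
  exact ⟨f, (Nat.prime_dvd_prime_iff_eq hr h.prime).1 ((CharP.cast_eq_zero_iff F r p).1 h.char) ▸ hq⟩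

/-- first part of `goalB`: `|G : G_w| = q^(2m) * uf q (2m)` (`IsHerm.card_norm_eq`); `q` is a power of `p` -/
theorem GS.pl (h : GS B q p m G) (S : Syl p G P) : PL B q p m P := by
  have := h.bar.finite
  have := Module.Finite.of_finite (R := F) (M := V)
  have := finite_linearEquiv (F := F) (V := V)
  obtain ⟨f, hq⟩ := h.pow
  have := Fact.mk h.prime
  obtain ⟨S', e⟩ := S.sylow h.prime S.le le_rfl
  refine ⟨h.bar, h.herm, h.rank, h.prime, h.char, S.pg, S.le.trans h.le, fun w n => ?_⟩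
  have w0 : w ≠ 0 := fun e => n (by simp [e])
  have i1 : (MulAction.stabilizer G w).index = q ^ (2 * m) * uf q (2 * m) := by
    rw [MulAction.index_stabilizer, ← h.herm.card_norm_eq h.bar h.rank n (h.herm.self_fixed w), ← Nat.card_coe_set_eq]
    exact Nat.card_congr (Equiv.subtypeEquivRight fun y => ⟨fun ⟨g, e⟩ => e ▸ h.le g.2 w w, fun e =>
      let ⟨g, hg, r⟩ := h.tr w y w0 (fun r => n (by simpa [r] using e.symm)) e.symm; ⟨⟨g, hg⟩, r⟩⟩)
  have i2 : (MulAction.stabilizer G w).relIndex S'.1 = Nat.card {x // ∃ g ∈ P, g w = x} := by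
    rw [e]
    refine (MulAction.index_stabilizer (P.subgroupOf G) w).trans ((Nat.card_coe_set_eq _).symm.trans ?_)
    exact Nat.card_congr (Equiv.subtypeEquivRight fun y =>
      ⟨fun ⟨g, e⟩ => ⟨_, g.2, e⟩, fun ⟨g, hg, e⟩ => ⟨⟨⟨g, S.le hg⟩, hg⟩, e⟩⟩)
  have d := Subgroup.index_dvd_of_le (inf_le_left (a := MulAction.stabilizer G w) (b := S'.1))
  rw [← Subgroup.relIndex_mul_index inf_le_right, Subgroup.inf_relIndex_right, i1, i2] at d
  refine Nat.le_of_dvd (by rw [← i2]; exact Nat.pos_of_ne_zero Subgroup.index_ne_zero_of_finite)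
    (Nat.Coprime.dvd_of_dvd_mul_right ?_ ((dvd_mul_right _ _).trans d))
  rw [hq]
  exact ((h.prime.coprime_iff_not_dvd.2 S'.not_dvd_index).pow_left _).pow_left _

/-- A Sylow `P₀` fixes an isotropic `e ≠ 0` (`PL.ext` with `U = ⊥`), `g e = a` (`tr`), so `g P₀ g⁻¹` fixes `a`
and the stabiliser `G_a` has index prime to `p`; a Sylow subgroup of `G_a` containing `D` is Sylow in `G`. -/
theorem GS.syl_fix (h : GS B q p m G) (m0 : 0 < m) {D : Subgroup (V ≃ₗ[F] V)} (l : D ≤ G)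
    (hD : IsPGroup p D) {a : V} (a0 : a ≠ 0) (aa : B a a = 0) (fa : ∀ g ∈ D, g a = a) :
    ∃ P, Syl p G P ∧ D ≤ P ∧ ∀ g ∈ P, g a = a := by
  have := h.bar.finite
  have := finite_linearEquiv (F := F) (V := V)
  have := Fact.mk h.prime
  obtain ⟨P₀, S₀, -⟩ := exists_syl (G := G) h.prime IsPGroup.of_bot bot_le
  obtain ⟨e, -, e0, ee, fe⟩ := (h.pl S₀).ext ⊥ bot_le (by simp) (by simpa)
  obtain ⟨g, hg, eg⟩ := h.tr e a e0 a0 (ee.trans aa.symm)
  obtain ⟨S', hS⟩ := S₀.sylow h.prime S₀.le le_rfl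
  have l2 : ((⟨g, hg⟩ : G) • S').1 ≤ (MulAction.stabilizer (V ≃ₗ[F] V) a).subgroupOf G := by
    rintro _ ⟨y, hy, rfl⟩
    change g (y.1 (g⁻¹ a)) = a
    rw [hS] at hy
    rw [← eg, show g⁻¹ (g e) = e from g.symm_apply_apply e, show y.1 e = e from sub_eq_zero.1 (fe _ hy)]
  obtain ⟨P, S, hP⟩ := exists_syl (G := MulAction.stabilizer (V ≃ₗ[F] V) a ⊓ G) h.prime hD (le_inf fa l)
  refine ⟨P, ⟨S.le.trans inf_le_right, S.pg, fun d => ?_⟩, hP, fun g hg => (S.le hg).1⟩
  rw [← Subgroup.relIndex_mul_relIndex P _ G S.le inf_le_right, h.prime.dvd_mul, Subgroup.inf_relIndex_right] at d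
  exact d.elim S.nd fun d => ((⟨g, hg⟩ : G) • S').not_dvd_index (d.trans (Subgroup.index_dvd_of_le l2))

/-- second part of `goalB` (and the end of `PL.transl`: the translation vectors form a `P`-stable additive
subgroup `X`, `PL.fix` gives a fixed `x ≠ 0`): a translation produces a transvection -/
theorem GS.tf (h : GS B q p m G) (S : Syl p G P) (f : Fr B m P U w) : TF P U w := by
  have hσ := h.bar
  have := hσ.finite
  have := Module.Finite.of_finite (R := F) (M := V)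
  have := finite_linearEquiv (F := F) (V := V)
  have := Fintype.ofFinite F
  have hF := Nat.card_eq_fintype_card.symm.trans hσ.card
  have := Fact.mk h.prime
  have pl := h.pl S
  obtain ⟨hU, hP, hd, w1, w0, w2, w4, -⟩ := f
  obtain ⟨S', hS⟩ := S.sylow h.prime S.le le_rfl
  have hG := h.le
  intro t₀ tP₀ t₀1
  by_contra n₀
  let X : AddSubgroup V :=
    { carrier := {x | x ∈ U ∧ ∃ t ∈ P, (∀ u ∈ U, t u = u) ∧ t w = w + x}
      zero_mem' := ⟨zero_mem _, 1, one_mem _, fun _ _ => rfl, (add_zero _).symm⟩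
      add_mem' := fun {x y} ⟨hx, t, ht, t1, t2⟩ ⟨hy, s, hs, s1, s2⟩ => ⟨add_mem hx hy, t * s, mul_mem ht hs,
        fun u hu => by rw [LinearEquiv.mul_apply, s1 u hu, t1 u hu],
        by rw [LinearEquiv.mul_apply, s2, map_add, t2, t1 y hy, add_assoc]⟩
      neg_mem' := fun {x} ⟨hx, t, ht, t1, t2⟩ => ⟨neg_mem hx, t⁻¹, inv_mem ht,
        fun u hu => t.symm_apply_eq.2 (t1 u hu).symm,
        t.symm_apply_eq.2 (by rw [map_add, map_neg, t2, t1 x hx, add_neg_cancel_right])⟩ }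
  obtain ⟨x, ⟨hx, t, tP, t1, t2⟩, x0, fx⟩ := pl.fix (A := ⊥) (A' := X) (by simp) (fun g hg x ⟨hx, t, ht, t1, t2⟩ =>
    ⟨hP g hg x hx, g * t * g⁻¹, mul_mem (mul_mem hg ht) (inv_mem hg), fun u hu => by
      rw [LinearEquiv.mul_apply, LinearEquiv.mul_apply, t1 _ (hP _ (inv_mem hg) u hu)]
      exact g.apply_symm_apply u, by
      have := t1 _ (w4 _ (inv_mem hg))
      rw [map_sub, t2, sub_eq_iff_eq_add] at this
      rw [LinearEquiv.mul_apply, LinearEquiv.mul_apply, this, ← add_assoc, sub_add_cancel, map_add]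
      exact congrArg (· + _) (g.apply_symm_apply w)⟩) fun l =>
    n₀ (sub_eq_zero.1 (l (x := t₀ w - w) ⟨w4 _ tP₀, t₀, tP₀, t₀1, (add_sub_cancel _ _).symm⟩))
  replace fx := fun g hg => sub_eq_zero.1 (fx g hg)
  have tG := S.le tP
  have xx : B x x = 0 := mem_perp.1 (hU hx) x hx
  have ht := h.tr
  have nt := fun s hs c e => (h.nt s hs x c xx e).resolve_right x0
  replace h := h.herm
  by_cases h2 : (2 : F) = 0
  · exact one_div_ne_zero w0 (nt _ (mul_mem tG tG) _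
      ((comm_transl h hU w1 w0 w2 hx (hG tG) (hG tG) t1 t1 (l := 1) t2 (by rwa [one_smul])).2 h2))
  have r2 : ringChar F ≠ 2 := fun e => h2 (by exact_mod_cast e ▸ ringChar.Nat.cast_ringChar (R := F))
  obtain ⟨γ, hγ⟩ := FiniteField.exists_nonsquare r2
  have γ0 : γ ≠ 0 := fun e => hγ (e ▸ IsSquare.zero)
  obtain ⟨g, hg, eg⟩ := ht x (γ • x) x0 (smul_ne_zero γ0 x0) (by simp [xx])
  have mS : ∀ y : G, y ∈ S'.1 ↔ y.1 ∈ P := fun y => by rw [hS]; rfl
  have l1 : S'.1 ≤ MulAction.stabilizer G x := fun y hy => fx _ ((mS y).1 hy)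
  have l2 : ((⟨g, hg⟩ : G) • S').1 ≤ MulAction.stabilizer G x := by
    rintro _ ⟨y, hy, rfl⟩
    have : g⁻¹ x = γ⁻¹ • x := g.symm_apply_eq.2 (by rw [map_smul, eg, inv_smul_smul₀ γ0])
    change g (y.1 (g⁻¹ x)) = x
    rw [this, map_smul, show y.1 x = x from l1 hy, ← this]
    exact g.apply_symm_apply x
  obtain ⟨r, hr⟩ := MulAction.exists_smul_eq (MulAction.stabilizer G x) (((⟨g, hg⟩ : G) • S').subtype l2) (S'.subtype l1)
  simp_rw [Sylow.smul_subtype, Subgroup.smul_def, smul_smul] at hr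
  have hn := Sylow.smul_eq_iff_mem_normalizer.1 (Sylow.subtype_injective hr)
  have nx : (r.1 * ⟨g, hg⟩ : G).1 x = γ • x := by
    change r.1.1 (g x) = _
    rw [eg, map_smul, show r.1.1 x = x from r.2]
  generalize r.1 * ⟨g, hg⟩ = n at hn nx
  have nU : U.map (n.1 : V →ₗ[F] V) = U := pl.uniq (by rw [perp_map (hG n.2)]; exact Submodule.map_mono hU) hU (by
    rintro y hy _ ⟨u, hu, rfl⟩
    exact ⟨_, hP _ ((mS _).1 ((Subgroup.mem_normalizer_iff''.1 hn ⟨y, S.le hy⟩).1 ((mS _).2 hy))) u hu,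
      n.1.apply_symm_apply _⟩) hP ((LinearEquiv.finrank_map_eq _ _).trans hd) hd
  obtain ⟨a, ha⟩ := w2 (n.1 w) (by rw [← nU, perp_map (hG n.2)]; exact ⟨w, w1, rfl⟩)
  have a1 : a * σ a = 1 := by
    have := hG n.2 w w
    rw [← sub_add_cancel (n.1 w) (a • w)] at this
    simp only [map_add, LinearMap.add_apply, LinearMap.map_smulₛₗ₂, map_smul, smul_eq_mul, mem_perp.1 w1 _ ha,
      LinearMap.smul_apply, h.eq_zero_comm.1 (mem_perp.1 w1 _ ha), mem_perp.1 (hU ha) _ ha] at this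
    exact mul_right_cancel₀ w0 (by linear_combination this)
  have a0 := left_ne_zero_of_mul_eq_one a1
  have t'1 : ∀ u ∈ U, (n.1 * t * n.1⁻¹) u = u := fun u hu => by
    obtain ⟨u, hu', rfl⟩ := nU.ge hu
    exact congrArg n.1 ((congrArg t (n.1.symm_apply_apply u)).trans (t1 u hu'))
  have t'2 : (n.1 * t * n.1⁻¹) w = w + (γ / a) • x := by
    have : (n.1 * t * n.1⁻¹) (n.1 w) = n.1 w + γ • x :=
      (congrArg (fun y => n.1 (t y)) (n.1.symm_apply_apply w)).trans (by rw [t2, map_add, nx])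
    have e := t'1 _ ha
    rw [map_sub, this, map_smul] at e
    refine smul_right_injective V a0 ?_
    simp only [smul_add, smul_smul, mul_div_cancel₀ _ a0]
    linear_combination (norm := module) -e
  have t'G : n.1 * t * n.1⁻¹ ∈ G := mul_mem (mul_mem n.2 tG) (inv_mem n.2)
  refine div_ne_zero (sub_ne_zero.2 fun e => hγ ?_) w0 (nt _
    (mul_mem (mul_mem (mul_mem tG t'G) (inv_mem tG)) (inv_mem t'G)) _
    (comm_transl h hU w1 w0 w2 hx (hG tG) (hG t'G) t1 t'1 t2 t'2).1)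
  obtain ⟨y, hy⟩ := hσ.exists_norm_eq e.symm
  obtain ⟨z, z0, hz⟩ := hσ.exists_div_eq a1
  obtain ⟨k, rfl⟩ : Odd q := by
    have := FiniteField.odd_card_of_char_ne_two r2
    rw [hF, ← Nat.odd_iff, Nat.odd_pow_iff two_ne_zero] at this
    exact this
  rw [hσ.norm_eq, eq_div_iff a0] at hy
  rw [hσ.eq, pow_succ] at hz
  exact ⟨y ^ (k + 1) * z ^ k, by rw [← hy, ← mul_right_cancel₀ z0 hz]; ring⟩

/-- last part of `goalB`; `σ c₀ = - c₀` because `s` is an isometry: expand `B (s v) (s v) = B v v` for `v`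
with `B x v = 1`. -/
theorem all_transv (hσ : IsBar q σ) (h : IsHerm σ B) (hG : G ≤ UG B) (ht : Tr B G) {s : V ≃ₗ[F] V}
    (hs : s ∈ G) {x : V} {c₀ : F} (x0 : x ≠ 0) (c0 : c₀ ≠ 0) (xx : B x x = 0)
    (es : ∀ v, s v = v + (c₀ * B x v) • x) (u : V) (c : F) (hu : B u u = 0) (hc : c + σ c = 0) :
    transv B u c hu hc ∈ G := by
  have sk : σ c₀ = -c₀ := by
    obtain ⟨v, hv⟩ := h.exists_ne_zero x0
    have e := hG hs v v
    rw [es] at e
    simp only [map_add, LinearMap.add_apply, LinearMap.map_smulₛₗ₂, map_smul, smul_eq_mul, xx, map_mul,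
      LinearMap.smul_apply, ← h.symm x v] at e
    exact mul_right_cancel₀ (mul_ne_zero hv ((map_ne_zero σ).2 hv)) (by linear_combination e)
  by_cases u0 : u = 0 ∨ c = 0
  · convert G.one_mem
    ext v
    rcases u0 with r | r <;> simp [r]
  rw [not_or] at u0
  obtain ⟨a, ha⟩ := hσ.exists_norm_eq (μ := c / c₀) (by rw [map_div₀, sk, eq_neg_of_add_eq_zero_right hc, neg_div_neg_eq])
  have a0 := left_ne_zero_of_mul (ha ▸ div_ne_zero u0.2 c0)
  obtain ⟨g, hg, eg⟩ := ht x (a • u) x0 (smul_ne_zero a0 u0.1) (by simp [xx, hu])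
  convert mul_mem (mul_mem hg hs) (inv_mem hg)
  ext v
  rw [LinearEquiv.mul_apply, LinearEquiv.mul_apply, es, map_add, map_smul, ← UG_apply_left (hG hg), eg, transv_apply,
    smul_smul, LinearMap.map_smulₛₗ₂, smul_eq_mul, (div_eq_iff c0).1 ha.symm]
  congr 1
  · exact (g.apply_symm_apply v).symm
  · congr 1
    ring

end Cfsg.Lib.US11
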