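import Cfsg.Agent.Lib.US11.Def
import Cfsg.Agent.Lib.Coprime.Generation

/-!
# Coprime action in dimension at most three
-/

set_option autoImplicit false

namespace Cfsg.Lib.US11

open Module
open scoped Pointwise

variable {F C : Type*} [Field F] [AddCommGroup C] [Module F C]

/-- If `M² = 0`: `range M ≤ ker M`, so `dim range M ≤ 1`, `range M = F e`, `c • n e = n (M a) = M (n a)`.
Else `ker M < ker M² < ker M³` (nilpotent), so `ker M = F e ∋ n e`. -/
theorem line_of_comm [Module.Finite F C] (hd : finrank F C ≤ 3) {M n : C →ₗ[F] C} (hM : IsNilpotent M)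
    {e a : C} {c : F} (e0 : e ≠ 0) (c0 : c ≠ 0) (he : M e = 0) (ha : M a = c • e)
    (hn : n * M = M * n) : n e ∈ F ∙ e := by
  have cm : ∀ v, n (M v) = M (n v) := fun v => LinearMap.congr_fun hn v
  have one : ∀ W : Submodule F C, finrank F W ≤ 1 → e ∈ W → W = F ∙ e := fun W h1 h2 =>
    (Submodule.eq_of_le_of_finrank_le ((Submodule.span_singleton_le_iff_mem _ _).2 h2)
      (by rw [finrank_span_singleton e0]; exact h1)).symm
  have rk := LinearMap.finrank_range_add_finrank_ker M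
  by_cases h2 : LinearMap.range M ≤ LinearMap.ker M
  · have := Submodule.finrank_mono h2
    have e1 : M (c⁻¹ • a) = e := by rw [map_smul, ha, inv_smul_smul₀ c0]
    rw [← one (LinearMap.range M) (by omega) ⟨_, e1⟩]
    exact ⟨n (c⁻¹ • a), by rw [← cm, e1]⟩
  · rw [← one (LinearMap.ker M) ?_ he]
    · exact (cm e).symm.trans (by rw [he, map_zero])
    by_contra h3
    obtain ⟨_, ⟨v, rfl⟩, hv⟩ := SetLike.not_le_iff_exists.1 h2
    have v0 : M v ≠ 0 := fun r => hv (by rw [r]; exact zero_mem _)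
    have r1 : LinearMap.range M = F ∙ M v :=
      (Submodule.eq_of_le_of_finrank_le ((Submodule.span_singleton_le_iff_mem _ _).2 (LinearMap.mem_range_self M v))
        (by rw [finrank_span_singleton v0]; omega)).symm
    obtain ⟨l, hl⟩ := Submodule.mem_span_singleton.1 (r1.le ⟨M v, rfl⟩)
    obtain ⟨k, hk⟩ := hM
    have : ∀ j, (M ^ j) (M v) = l ^ j • M v := fun j => by
      induction j with
      | zero => simp
      | succ j ih => rw [pow_succ', Module.End.mul_apply, ih, map_smul, ← hl, smul_smul, pow_succ]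
    have e2 := this k
    rw [hk, LinearMap.zero_apply, eq_comm, smul_eq_zero, or_iff_left v0] at e2
    exact hv (by rw [LinearMap.mem_ker, ← hl, eq_zero_of_pow_eq_zero e2, zero_smul])

/-- `dim ker M ≥ 2`, so `range M = F e` -/
theorem range_line [Module.Finite F C] (hd : finrank F C ≤ 3) {M : C →ₗ[F] C} {e a a' : C} {c : F}
    (e0 : e ≠ 0) (c0 : c ≠ 0) (he : M e = 0) (ha : M a = c • e) (ha' : M a' = 0) (n : a' ∉ F ∙ e) (v : C) :
    M v ∈ F ∙ e := by
  have rk := LinearMap.finrank_range_add_finrank_ker M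
  have k2 : finrank F ↥((F ∙ e) ⊔ F ∙ a') ≤ finrank F (LinearMap.ker M) := Submodule.finrank_mono
    (sup_le ((Submodule.span_singleton_le_iff_mem _ _).2 he) ((Submodule.span_singleton_le_iff_mem _ _).2 ha'))
  rw [Submodule.finrank_sup_span_singleton n, finrank_span_singleton e0] at k2
  have e1 : M (c⁻¹ • a) = e := by rw [map_smul, ha, inv_smul_smul₀ c0]
  rw [Submodule.eq_of_le_of_finrank_le ((Submodule.span_singleton_le_iff_mem e (LinearMap.range M)).2 ⟨_, e1⟩)
    (by rw [finrank_span_singleton e0]; omega)]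
  exact ⟨v, rfl⟩

/-- `N = ker s` is normal, `O = N P`, `E = ρ P` is abelian (`h0` for commutators) and not cyclic (`x ↦ (x a - a)` maps
it onto `F e`; a cyclic `p`-group of unipotent maps gives at most `p` values, `|F| > p`), `K = ρ N` has order prime to `p`
(`N ⊓ P` is Sylow in `N` and lies in `ker ρ`).  `Coprime.le_of_forall_centralizer_le` in `C ≃ₗ[F] C` and
`line_of_comm` (`x - 1` is nilpotent) show that `K` stabilises `F e`.  `y = n x n⁻¹` with `x ∈ P`, `n ∈ N` (Sylow's theorem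
and `O = N P`), `s y = s x`.  If `s x = 0` use `hD`.  Else `ρ x` fixes `(ρ n)⁻¹ a ∉ F e`, `range_line`: `ρ x`, `ρ y` are
`1 + M`, `1 + M'` with ranges in `F e` and `M e = M' e = 0`; so `ρ (x⁻¹ y) = 1 + (M' - M)` has `p`-th power `1` and lies in `K`,
hence `ρ y = ρ x`, `a = a + s x • e`: absurd. -/
theorem small {O : Type*} [Group O] [Finite O] [Finite C] {p : ℕ} [Fact p.Prime] (hp : (p : F) = 0)
    (hF : p < Nat.card F) (hd : finrank F C ≤ 3) (ρ : O →* (C ≃ₗ[F] C)) (s : O → F)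
    (hs : ∀ g k, s (g * k) = s g + s k) (P : Sylow p O) {e a : C} (e0 : e ≠ 0)
    (he : ∀ g ∈ P, ρ g e = e) (ha : ∀ g ∈ P, ρ g a = a + s g • e) (h0 : ∀ g ∈ P, s g = 0 → ρ g = 1)
    (su : ∀ c, ∃ g ∈ P, s g = c) (hD : ∀ g ∈ P, s g = 0 → ∀ k, k * g * k⁻¹ ∈ P)
    {y : O} {j : ℕ} (hy : y ^ p ^ j = 1) (ya : ρ y a = a) : y ∈ P ∧ s y = 0 := by
  have hpp : p.Prime := Fact.out
  have : Module.Finite F C := Module.Finite.of_finite
  have : Finite (C ≃ₗ[F] C) := Finite.of_injective (fun x : C ≃ₗ[F] C => (x : C → C)) DFunLike.coe_injective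
  have : CharP F p := (CharP.charP_iff_prime_eq_zero hpp).2 hp
  have : Nontrivial C := ⟨e, 0, e0⟩
  have : CharP (Module.End F C) p := charP_of_injective_algebraMap (algebraMap F _).injective p
  let S : O →* Multiplicative F := MonoidHom.mk' (fun g => Multiplicative.ofAdd (s g)) fun g k => by
    rw [hs, ofAdd_add]
  let T : O →* Module.End F C := LinearEquiv.automorphismGroup.toLinearMapMonoidHom.comp ρ
  have Ta : ∀ g v, T g v = ρ g v := fun _ _ => rfl
  have mS : ∀ g, g ∈ S.ker ↔ s g = 0 := fun g => Iff.rfl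
  have s1 : s 1 = 0 := (mS 1).1 (one_mem _)
  have si : ∀ g, s g⁻¹ = -s g := fun g => by
    have := hs g g⁻¹
    rw [mul_inv_cancel, s1] at this
    linear_combination -this
  have pP : ∀ g ∈ P, ∃ j, g ^ p ^ j = 1 := fun g hg =>
    let ⟨j, hj⟩ := P.isPGroup' ⟨g, hg⟩; ⟨j, congrArg Subtype.val hj⟩
  have nil : ∀ g ∈ P, IsNilpotent (T g - 1) := fun g hg => let ⟨j, hj⟩ := pP g hg; ⟨p ^ j, by
    rw [sub_pow_char_pow_of_commute _ _ (Commute.one_right _), one_pow, ← map_pow, hj, map_one, sub_self]⟩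
  have cj : ∀ y : O, (∃ j, y ^ p ^ j = 1) → ∃ n, ∃ x ∈ P, s n = 0 ∧ s x = s y ∧ n * x * n⁻¹ = y := fun y ⟨j, hj⟩ => by
    obtain ⟨Q, hQ⟩ := IsPGroup.exists_le_sylow (P := Subgroup.zpowers y) (p := p) (by
      rintro ⟨_, k, rfl⟩
      exact ⟨j, Subtype.ext (by
        change (y ^ k) ^ p ^ j = 1
        rw [← zpow_natCast, ← zpow_mul, mul_comm, zpow_mul, zpow_natCast, hj, one_zpow])⟩)
    obtain ⟨g, rfl⟩ := MulAction.exists_smul_eq O P Q
    obtain ⟨z, hz, ez⟩ := hQ (Subgroup.mem_zpowers _)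
    obtain ⟨k, hk, sk⟩ := su (s g)
    have ez' : g * z * g⁻¹ = y := ez
    exact ⟨g * k⁻¹, k * z * k⁻¹, mul_mem (mul_mem hk hz) (inv_mem hk), by rw [hs, si, sk, add_neg_cancel], by
      rw [← ez']; simp only [hs, si]; ring, by rw [← ez']; group⟩
  have cK : ∀ x, s x = 0 → ρ x ^ p = 1 → ρ x = 1 := fun x hx ox => by
    have x0 := (orderOf_pos x).ne'
    obtain ⟨n, z, hz, -, sz, e⟩ := cj (x ^ ordCompl[p] (orderOf x)) ⟨(orderOf x).factorization p, by
      rw [← pow_mul, mul_comm, Nat.ordProj_mul_ordCompl_eq_self, pow_orderOf_eq_one]⟩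
    rw [(mS _).1 (pow_mem ((mS x).2 hx) _)] at sz
    refine (pow_eq_one_iff_of_coprime (Nat.coprime_ordCompl hpp x0)).1 ⟨ox, ?_⟩
    rw [← map_pow, ← e, map_mul, map_mul, h0 z hz sz, mul_one, ← map_mul, mul_inv_cancel, map_one]
  have pE := P.isPGroup'.map ρ
  have KL : S.ker.map ρ ≤ MulAction.stabilizer (C ≃ₗ[F] C) (F ∙ e) := by
    refine Coprime.le_of_forall_centralizer_le (A := (P : Subgroup O).map ρ) ⟨⟨?_⟩⟩ ?_ ?_ ?_ ?_
    · rintro ⟨_, g, hg, rfl⟩ ⟨_, k, hk, rfl⟩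
      have := h0 ((k * g)⁻¹ * (g * k)) (mul_mem (inv_mem (mul_mem hk hg)) (mul_mem hg hk)) (by simp only [hs, si]; ring)
      rw [map_mul, map_inv, inv_mul_eq_one, map_mul, map_mul] at this
      exact Subtype.ext this.symm
    · rintro ⟨⟨_, g, hg, rfl⟩, hc⟩
      have pw : ∀ k : ℤ, s (g ^ k) = k * s g := fun k => by
        have := congrArg Multiplicative.toAdd (map_zpow S g k)
        rwa [toAdd_zpow, zsmul_eq_mul] at this
      refine hF.not_ge ?_
      have := Nat.card_le_card_of_surjective (fun k : ZMod p => (ZMod.castHom (dvd_refl p) F k) * s g) fun c => by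
        obtain ⟨x, hx, rfl⟩ := su c
        obtain ⟨k, hk⟩ := hc ⟨_, x, hx, rfl⟩
        have e1 : ρ (g ^ k) = ρ x := (map_zpow ρ g k).trans (congrArg Subtype.val hk)
        have e2 := ha _ (zpow_mem hg k)
        rw [e1, ha x hx, add_right_inj, pw] at e2
        exact ⟨k, by simpa using (smul_left_injective F e0 e2).symm⟩
      rwa [Nat.card_zmod] at this
    · rintro _ ⟨g, -, rfl⟩
      exact Subgroup.le_normalizer_map ρ ⟨g, by rw [Subgroup.normalizer_eq_top]; trivial, rfl⟩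
    · obtain ⟨k, hk⟩ := IsPGroup.iff_card.1 pE
      refine hk ▸ (hpp.coprime_iff_not_dvd.2 fun d => ?_).pow_left k
      obtain ⟨⟨_, x, hx, rfl⟩, ox⟩ := exists_prime_orderOf_dvd_card' p d
      have := cK x hx (congrArg Subtype.val (orderOf_dvd_iff_pow_eq_one.1 ox.dvd))
      exact hpp.one_lt.ne (by rw [← ox, eq_comm, orderOf_eq_one_iff]; exact Subtype.ext this)
    · rintro _ ⟨g, hg, rfl⟩ g1 n ⟨-, hn⟩
      have := line_of_comm hd (n := n) (nil g hg) e0 (fun r => g1 (h0 g hg r))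
        (sub_eq_zero.2 (he g hg)) (sub_eq_iff_eq_add'.2 (ha g hg)) (LinearMap.ext fun v => by
          have := LinearEquiv.congr_fun (Subgroup.mem_centralizer_singleton_iff.1 hn) v
          simpa [Ta] using this)
      refine Submodule.eq_of_le_of_finrank_le ?_ (LinearEquiv.finrank_map_eq n _).ge
      rintro _ ⟨v, hv, rfl⟩
      obtain ⟨c, rfl⟩ := Submodule.mem_span_singleton.1 hv
      exact (map_smul n c e).symm ▸ Submodule.smul_mem _ c this
  have KL' : ∀ n, s n = 0 → ∀ v ∈ F ∙ e, ρ n v ∈ F ∙ e := fun n hn v hv =>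
    (KL ⟨n, hn, rfl⟩ : ρ n • (F ∙ e) = F ∙ e).le ⟨v, hv, rfl⟩
  obtain ⟨n, x, hx, sn, sx, rfl⟩ := cj y ⟨j, hy⟩
  rw [← sx]
  suffices r : s x = 0 from ⟨hD x hx r n, r⟩
  by_contra r
  have inv : ∀ v, ρ n (ρ n⁻¹ v) = v := fun v => by rw [← LinearEquiv.mul_apply, ← map_mul, mul_inv_cancel, map_one]; rfl
  have ay : ∀ v, ρ (n * x * n⁻¹) v = ρ n (ρ x (ρ n⁻¹ v)) := fun v => by rw [map_mul, map_mul]; rfl
  have fl : ∀ v ∈ F ∙ e, ∀ g ∈ P, ρ g v = v := fun v hv g hg => by
    obtain ⟨c, rfl⟩ := Submodule.mem_span_singleton.1 hv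
    rw [map_smul, he g hg]
  have ae : a ∉ F ∙ e := fun m => r ((smul_eq_zero.1 (left_eq_add.1 ((fl a m x hx).symm.trans (ha x hx)))).resolve_right e0)
  have M : ∀ v, ρ x v - v ∈ F ∙ e := range_line hd (M := T x - 1) (a' := ρ n⁻¹ a) e0 r (sub_eq_zero.2 (he x hx))
    (sub_eq_iff_eq_add'.2 (ha x hx)) (sub_eq_zero.2 ((ρ n).injective ((ay a).symm.trans (ya.trans (inv a).symm))))
    fun m => ae (inv a ▸ KL' n sn _ m)
  have M' : ∀ v, ρ (n * x * n⁻¹) v - v ∈ F ∙ e := fun v => by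
    have := KL' n sn _ (M (ρ n⁻¹ v))
    rwa [map_sub, inv, ← ay] at this
  have fl' : ∀ v ∈ F ∙ e, ρ (n * x * n⁻¹) v = v := fun v hv => by
    rw [ay, fl _ (KL' _ (by rw [si, sn, neg_zero]) v hv) x hx, inv]
  have k1 : ∀ v, ρ (x⁻¹ * (n * x * n⁻¹)) v - v ∈ F ∙ e := fun v => by
    have e1 := fl _ (sub_mem (M' v) (M v)) _ (inv_mem hx)
    rw [sub_sub_sub_cancel_right, map_sub, ← LinearEquiv.mul_apply _ (ρ x), ← map_mul, inv_mul_cancel, map_one] at e1
    rw [map_mul, LinearEquiv.mul_apply]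
    exact e1.symm ▸ (sub_sub_sub_cancel_right _ _ v) ▸ sub_mem (M' v) (M v)
  have k2 : ∀ v ∈ F ∙ e, ρ (x⁻¹ * (n * x * n⁻¹)) v = v := fun v hv => by
    rw [map_mul, LinearEquiv.mul_apply, fl' v hv, fl v hv _ (inv_mem hx)]
  have k3 := cK (x⁻¹ * (n * x * n⁻¹)) (by simp only [hs, si]; ring) (LinearEquiv.ext fun v => by
    generalize ρ (x⁻¹ * (n * x * n⁻¹)) = g at k1 k2
    have : ∀ k : ℕ, (g ^ k) v = v + (k : F) • (g v - v) := fun k => by
      induction k with
      | zero => simp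
      | succ k ih =>
        rw [pow_succ', LinearEquiv.mul_apply, ih, map_add, map_smul, k2 _ (k1 v), Nat.cast_succ]
        module
    rw [this, hp, zero_smul, add_zero]
    rfl)
  rw [map_mul, map_inv, inv_mul_eq_one] at k3
  exact r ((smul_eq_zero.1 (left_eq_add.1 (ya.symm.trans (k3 ▸ ha x hx)))).resolve_right e0)

end Cfsg.Lib.US11
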