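import Cfsg.Agent.Lib.US11.Loc
import Cfsg.Agent.Lib.US11.Glob
import Cfsg.Agent.Lib.US11.Beta
import Cfsg.Agent.Lib.US11.Small

/-!
# A subgroup of `GU₁₁(q)` with the same orbits on vectors contains all transvections
-/

set_option autoImplicit false

namespace Cfsg.Lib.US11

open Module Cfsg.Lib.Unitary Cfsg.Lib.US7

variable {F V : Type*} [Field F] [AddCommGroup V] [Module F V] [Finite V] {σ : F →+* F} {q p m : ℕ}
  {B : V →ₛₗ[σ] V →ₗ[F] F} {G P : Subgroup (V ≃ₗ[F] V)} {U : Submodule F V} {w e a : V} {ψ : V →ₗ[F] F}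

/-- the stabiliser of `a` -/
theorem St.exists_D (h : PL B q p m P) (f : Fr B m P U w) (s : St P U w e a ψ) :
    ∃ D : Subgroup (V ≃ₗ[F] V), (∀ g, g ∈ D ↔ g ∈ P ∧ ψ (g w - w) = 0) ∧ ∀ c, ∃ g ∈ P, ψ (g w - w) = c := by
  refine ⟨P ⊓ MulAction.stabilizer _ a, fun g => and_congr_right fun hg => ?_, fun c => ?_⟩
  · change g a = a ↔ _
    rw [s.fa g hg, add_eq_left, smul_eq_zero, or_iff_left s.e0]
  · obtain ⟨u, hu, u1⟩ := s.ne
    obtain ⟨g, hg, e⟩ := f.tr _ (U.smul_mem c hu)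
    exact ⟨g, hg, by rw [e, add_sub_cancel_left, map_smul, u1, smul_eq_mul, mul_one]⟩

/-- `D = {g ∈ P | ψ (g w - w) = 0}` (subgroup by `St.add`) fixes `a ≠ 0`; `P₂ ≥ D` from `syl_fix`, `U₂ w₂` from
`exists_fr`, `U₂ = U` by `St.same`.  `D ≠ P₂` (`Syl.eq_of_le`, `D < P`), so some `y ∈ P₂ \ D` normalises `D`
(normaliser condition in the `p`-group `P₂`).  `y w - w ∈ U` as `w - c • w₂ ∈ U`.  For `v ∈ U`, `ψ v = 0`:
`g w = w + v`, `g ∈ D`, `g' = y g y⁻¹ ∈ D`, `y v = g' (y w) - y w` has `ψ = 0`.  So `ψ (y u) = c ψ u` on `U` and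
`c ^ p ^ j = 1`, `c = 1`. -/
theorem GS.exists_y (h : GS B q p m G) (S : Syl p G P) (f : Fr B m P U w) (s : St P U w e a ψ) :
    ∃ y ∈ G, (∃ j, y ^ p ^ j = 1) ∧ y a = a ∧ (∀ u ∈ U, y u ∈ U ∧ ψ (y u) = ψ u) ∧ y w - w ∈ U ∧
      (∀ g, (g ∈ P ∧ ψ (g w - w) = 0) ↔ (y * g * y⁻¹ ∈ P ∧ ψ ((y * g * y⁻¹) w - w) = 0)) ∧
      ¬ (y ∈ P ∧ ψ (y w - w) = 0) := by
  have := h.bar.finite
  have := Module.Finite.of_finite (R := F) (M := V)
  have := finite_linearEquiv (F := F) (V := V)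
  have := Fact.mk h.prime
  have : CharP F p := (CharP.charP_iff_prime_eq_zero h.prime).2 h.char
  have l := h.pl S
  obtain ⟨D, hD, su⟩ := s.exists_D l f
  obtain ⟨g₁, hg₁, e₁⟩ := su 1
  obtain ⟨u₁, hu₁, v₁⟩ := s.ne
  have DP : D ≤ P := fun g hg => ((hD g).1 hg).1
  have a0 : a ≠ 0 := fun r => s.e0 (by simpa [r, e₁] using (s.fa g₁ hg₁).symm)
  have m0 : 0 < m := f.rank ▸ finrank_pos_iff_exists_ne_zero.2 ⟨⟨a, s.aU⟩, fun r => a0 (congrArg Subtype.val r)⟩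
  obtain ⟨P₂, S₂, l₂, fa⟩ := h.syl_fix m0 (DP.trans S.le) (S.pg.to_le DP) a0 (mem_perp.1 (f.iso s.aU) a s.aU)
    fun g hg => by rw [s.fa g (DP hg), ((hD g).1 hg).2, zero_smul, add_zero]
  obtain ⟨U₂, w₂, f₂⟩ := exists_fr (h.pl S₂)
  obtain rfl : U₂ = U := s.same l f f₂.iso f₂.rank fun g hg r => f₂.inv g (l₂ ((hD g).2 ⟨hg, r⟩))
  have ne : D.subgroupOf P₂ < ⊤ := lt_top_iff_ne_top.2 fun r => by
    obtain rfl := le_antisymm l₂ (Subgroup.subgroupOf_eq_top.1 r)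
    have := ((hD g₁).1 ((S₂.eq_of_le h.prime S.pg DP S.le).ge hg₁)).2
    exact one_ne_zero (e₁.symm.trans this)
  have := S₂.pg.isNilpotent
  obtain ⟨y, hy, yD⟩ := SetLike.exists_of_lt (normalizerCondition_of_isNilpotent _ ne)
  have yn : ∀ g, g ∈ D ↔ y.1 * g * y.1⁻¹ ∈ D := fun g => ⟨fun hg =>
    (Subgroup.mem_normalizer_iff.1 hy ⟨g, l₂ hg⟩).1 hg, fun hg => by
      have := (Subgroup.mem_normalizer_iff.1 (inv_mem hy) ⟨_, l₂ hg⟩).1 hg
      simpa [Subgroup.mem_subgroupOf, mul_assoc] using this⟩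
  obtain ⟨j, hj⟩ := S₂.pg y
  have yw : y.1 w - w ∈ U₂ := by
    obtain ⟨c, hc⟩ := f₂.span w f.wp
    have := add_mem (sub_mem (f₂.inv _ y.2 _ hc) hc) (U₂.smul_mem c (f₂.fix _ y.2))
    rwa [map_sub, map_smul, show y.1 w - c • y.1 w₂ - (w - c • w₂) + c • (y.1 w₂ - w₂) = y.1 w - w by module] at this
  have k0 : ∀ v ∈ U₂, ψ v = 0 → ψ (y.1 v) = 0 := fun v hv v0 => by
    obtain ⟨g, hg, r, e⟩ := s.tr l f (x := w) (by simp) hv v0
    obtain ⟨h1, h2⟩ := (hD _).1 ((yn g).1 ((hD g).2 ⟨hg, r⟩))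
    have e1 : (y.1 * g * y.1⁻¹) (y.1 w) = y.1 w + y.1 v := by
      rw [← map_add, ← e]
      exact congrArg (fun x => y.1 (g x)) (y.1.symm_apply_apply w)
    have e2 := s.fp _ h1 _ yw
    rw [map_sub (y.1 * g * y.1⁻¹), e1] at e2
    simp only [map_sub, map_add] at e2 h2
    linear_combination e2 + h2
  have k1 : ∀ u ∈ U₂, ψ (y.1 u) = ψ (y.1 u₁) * ψ u := fun u hu => by
    have := k0 _ (sub_mem hu (U₂.smul_mem (ψ u) hu₁)) (by simp [v₁])
    simp only [map_sub, map_smul, smul_eq_mul] at this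
    linear_combination this
  have k2 : ∀ i : ℕ, ψ ((y ^ i).1 u₁) = ψ (y.1 u₁) ^ i := fun i => by
    induction i with
    | zero => simpa using v₁
    | succ i ih => rw [pow_succ', Subgroup.coe_mul, LinearEquiv.mul_apply, k1 _ (f₂.inv _ (y ^ i).2 _ hu₁), ih, pow_succ']
  have k3 : ψ (y.1 u₁) = 1 := by
    have := k2 (p ^ j)
    rw [hj, Subgroup.coe_one, LinearEquiv.coe_one, id, v₁] at this
    exact sub_eq_zero.1 (eq_zero_of_pow_eq_zero (n := p ^ j) (by rw [sub_pow_char_pow, ← this, one_pow, sub_self]))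
  exact ⟨y, S₂.le y.2, ⟨j, congrArg Subtype.val hj⟩, fa _ y.2, fun u hu => ⟨f₂.inv _ y.2 u hu, by rw [k1 u hu, k3, one_mul]⟩,
    yw, fun g => by rw [← hD, ← hD, ← yn], fun r => yD ((hD _).2 r)⟩

/-- `P` Sylow, `U w` (`exists_fr`), `tf`, `exists_st`, `exists_y`.  `O` = the elements of `G ⊓ N(D)` preserving `U`, `ψ` on `U`
and `w + U`; `P ≤ O`, `y ∈ O`; `C = C_U(D)` is `O`-stable of dimension `≤ 3` (`St.four`); `small` for the action on `C`
and `s g = ψ (g w - w)`. -/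
theorem GS.false (h : GS B q p 5 G) : False := by
  have := h.bar.finite
  have := finite_linearEquiv (F := F) (V := V)
  have := Fact.mk h.prime
  obtain ⟨P, S, -⟩ := exists_syl h.prime (IsPGroup.of_bot (p := p)) (bot_le (a := G))
  have l := h.pl S
  obtain ⟨U, w, f⟩ := exists_fr l
  have tf := h.tf S f
  obtain ⟨e, a, ψ, s⟩ := f.exists_st l tf
  obtain ⟨y, yG, ⟨j, yj⟩, ya, yU, yw, yn, yD⟩ := h.exists_y S f s
  obtain ⟨D, hD, su⟩ := s.exists_D l f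
  let O : Subgroup (V ≃ₗ[F] V) := G ⊓ Subgroup.normalizer (D : Set (V ≃ₗ[F] V)) ⊓
    { carrier := {g | (∀ u ∈ U, g u ∈ U ∧ ψ (g u) = ψ u) ∧ g w - w ∈ U}
      one_mem' := ⟨fun u hu => ⟨hu, rfl⟩, by simp⟩
      mul_mem' := fun {g k} hg hk => ⟨fun u hu => ⟨(hg.1 _ (hk.1 u hu).1).1, (hg.1 _ (hk.1 u hu).1).2.trans (hk.1 u hu).2⟩, by
        have := add_mem (hg.1 _ hk.2).1 hg.2
        rwa [map_sub, sub_add_sub_cancel] at this⟩
      inv_mem' := fun {g} hg => by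
        have k : ∀ i : ℕ, (∀ u ∈ U, (g ^ i) u ∈ U ∧ ψ ((g ^ i) u) = ψ u) ∧ (g ^ i) w - w ∈ U := fun i => by
          induction i with
          | zero => exact ⟨fun u hu => ⟨hu, rfl⟩, by simp⟩
          | succ i ih =>
            rw [pow_succ']
            refine ⟨fun u hu => ⟨(hg.1 _ (ih.1 u hu).1).1, (hg.1 _ (ih.1 u hu).1).2.trans (ih.1 u hu).2⟩, ?_⟩
            have := add_mem (hg.1 _ ih.2).1 hg.2
            rwa [map_sub, sub_add_sub_cancel] at this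
        rw [inv_eq_of_mul_eq_one_left (a := g ^ (orderOf g - 1)) (b := g) (by
          rw [← pow_succ, Nat.sub_add_cancel (orderOf_pos g), pow_orderOf_eq_one])]
        exact k _ }
  have sa : ∀ g k : O, ψ ((g * k).1 w - w) = ψ (g.1 w - w) + ψ (k.1 w - w) := fun g k => by
    have := (g.2.2.1 _ k.2.2.2).2
    simp only [map_sub, Subgroup.coe_mul, LinearEquiv.mul_apply] at this ⊢
    linear_combination this
  have PO : P ≤ O := fun g hg => ⟨⟨S.le hg, Subgroup.mem_normalizer_fintype fun k hk => by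
    obtain ⟨h1, h2⟩ := (hD k).1 hk
    refine (hD _).2 ⟨mul_mem (mul_mem hg h1) (inv_mem hg), ?_⟩
    have := s.add l f hg (inv_mem hg)
    rw [s.add l f (mul_mem hg h1) (inv_mem hg), s.add l f hg h1, h2, add_zero, ← this, mul_inv_cancel]
    simp⟩, fun u hu => ⟨f.inv g hg u hu, s.fp g hg u hu⟩, f.fix g hg⟩
  have yO : y ∈ O := ⟨⟨yG, Subgroup.mem_normalizer_iff.2 fun g => (hD g).trans ((yn g).trans (hD _).symm)⟩, yU, yw⟩
  let C : Submodule F V :=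
    { carrier := {x | x ∈ U ∧ ∀ g ∈ D, g x = x}
      zero_mem' := ⟨zero_mem _, fun g _ => map_zero g⟩
      add_mem' := fun hx hy => ⟨add_mem hx.1 hy.1, fun g hg => by rw [map_add, hx.2 g hg, hy.2 g hg]⟩
      smul_mem' := fun c x hx => ⟨U.smul_mem c hx.1, fun g hg => by rw [map_smul, hx.2 g hg]⟩ }
  have iC : ∀ g : O, ∀ x ∈ C, g.1 x ∈ C := fun g x hx => ⟨(g.2.2.1 x hx.1).1, fun k hk => by
    have := hx.2 _ ((Subgroup.mem_normalizer_iff''.1 g.2.1.2 k).1 hk)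
    exact g.1.symm_apply_eq.1 this⟩
  let ρ : O →* (C ≃ₗ[F] C) := MonoidHom.toHomUnits (G := O) (M := Module.End F C)
    { toFun := fun g => (g.1 : V →ₗ[F] V).restrict (iC g), map_one' := rfl, map_mul' := fun _ _ => rfl } |>
      (LinearMap.GeneralLinearGroup.generalLinearEquiv F C).toMonoidHom.comp
  have ρa : ∀ g x, (ρ g x).1 = g.1 x := fun _ _ => rfl
  obtain ⟨P', hP'⟩ := S.sylow h.prime PO (inf_le_left.trans inf_le_left)
  have mP : ∀ g : O, g ∈ P' ↔ g.1 ∈ P := fun g => by rw [← SetLike.mem_coe, ← P'.coe_coe, hP']; rfl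
  have pF : p < Nat.card F := by
    have := Fintype.ofFinite F
    have : CharP F p := (CharP.charP_iff_prime_eq_zero h.prime).2 h.char
    obtain ⟨n, -, hn⟩ := FiniteField.card F p
    have e1 := h.bar.card
    have e2 := h.bar.two_le
    rw [Nat.card_eq_fintype_card, hn] at e1 ⊢
    have := Nat.le_of_dvd (by omega) (h.prime.dvd_of_dvd_pow (e1 ▸ dvd_pow_self p n.ne_zero : p ∣ q ^ 2))
    rw [e1]
    nlinarith
  have := small (C := C) h.char pF (s.four l f tf (h.nt.mono S.le) fun x => and_congr_right fun _ =>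
      ⟨fun r g hg e => r g ((hD g).2 ⟨hg, e⟩), fun r g hg => r g ((hD g).1 hg).1 ((hD g).1 hg).2⟩)
    ρ (fun g => ψ (g.1 w - w)) sa P' (e := ⟨e, s.eU, fun g hg => s.fe g ((hD g).1 hg).1⟩)
    (a := ⟨a, s.aU, fun g hg => by rw [s.fa g ((hD g).1 hg).1, ((hD g).1 hg).2, zero_smul, add_zero]⟩)
    (fun r => s.e0 (congrArg Subtype.val r)) (fun g hg => Subtype.ext (s.fe _ ((mP g).1 hg)))
    (fun g hg => Subtype.ext (s.fa _ ((mP g).1 hg)))
    (fun g hg r => LinearEquiv.ext fun x => Subtype.ext (x.2.2 _ ((hD _).2 ⟨(mP g).1 hg, r⟩)))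
    (fun c => let ⟨g, hg, r⟩ := su c; ⟨⟨g, PO hg⟩, (mP _).2 hg, r⟩)
    (fun g hg r k => (mP _).2 ((hD _).1 ((Subgroup.mem_normalizer_iff.1 k.2.1.2 g.1).1 ((hD _).2 ⟨(mP g).1 hg, r⟩))).1)
    (y := ⟨y, yO⟩) (j := j) (Subtype.ext yj) (Subtype.ext ya)
  exact yD ⟨(mP _).1 this.1, this.2⟩

/-- **Goal B** in dimension eleven -/
theorem goalB (hσ : IsBar q σ) (h : IsHerm σ B) (h11 : finrank F V = 11) (hG : G ≤ UG B) (ht : Tr B G)
    (u : V) (c : F) (hu : B u u = 0) (hc : c + σ c = 0) : transv B u c hu hc ∈ G := by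
  have := hσ.finite
  have := Fintype.ofFinite F
  obtain ⟨p, f, hp, _, -, -⟩ := exists_prime_pow_of_card (Nat.card_eq_fintype_card.symm.trans hσ.card)
  by_contra n
  refine GS.false (B := B) (G := G) ⟨hσ, h, h11, hp, CharP.cast_eq_zero F p, hG, ht, fun s hs x c₀ xx es => ?_⟩
  by_contra r
  rw [not_or] at r
  exact n (all_transv hσ h hG ht hs r.2 r.1 xx es u c hu hc)

end Cfsg.Lib.US11
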