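import Cfsg.Agent.Lib.US7.PF
import Cfsg.Agent.Lib.US11.CA

/-! # Overgroups of the Singer normaliser in `GU₁₁(q)` have the orbits of `GU₁₁(q)` -/

set_option autoImplicit false

namespace Cfsg.Lib.US11

open Module Cfsg.Lib.Unitary Cfsg.Lib.US7

variable {F K : Type*} [Field F] [Fintype F] [Field K] [Fintype K] [Algebra F K] {σ : F →+* F}
  {q d τ : ℕ} {s : K →+* K} {B : K →ₛₗ[σ] K →ₗ[F] F}

/-- port of `US7.Md.tr` to `n = 11`: `q` odd (`tr_odd`), `q` even with `d = 1` (polynomial method),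
`q` even with `d = 11` (Weil data in characteristic two) -/
theorem tr11 (M : Md q 11 d τ s B) {G : Subgroup (K ≃ₗ[F] K)} (O : Ov q τ B G) : Tr B G :=
  M.tr11' O

end Cfsg.Lib.US11
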