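import Cfsg.Agent.Lib.US7.Fin
import Cfsg.Agent.Lib.US11.GB
import Cfsg.Agent.Lib.US11.Tr

/-! # The normaliser of a Singer cycle is maximal in `SU₁₁(q)` -/

set_option autoImplicit false

namespace Cfsg.Lib.US11

open Module Cfsg.Lib.Unitary Cfsg.Lib.CKS Cfsg.Lib.US7

variable {F : Type*} [Field F] {σ : F →+* F} {q : ℕ}

theorem singer {K : Type*} [Fintype F] [Field K] [Fintype K] [Algebra F K] {d τ : ℕ} {s : K →+* K}
    {B : K →ₛₗ[σ] K →ₗ[F] F} (M : Md q 11 d τ s B) {X : Subgroup (K ≃ₗ[F] K)} (h1 : Nn F K ⊓ SUG B ≤ X)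
    (h2 : X ≤ SUG B) (h3 : ¬ X ≤ Nn F K) : SUG B ≤ X := by
  obtain ⟨G, O, hG⟩ := M.ov h1 h2 h3
  have r := M.rank
  have : SUG B ≤ G := M.herm.TG_eq_SUG M.bar (by omega) ▸
    TG_le (goalB M.bar M.herm r O.le (tr11 M O))
  rw [← M.herm.commutator_SUG M.bar (by omega) (by omega)]
  exact (Subgroup.commutator_mono this this).trans hG

open Matrix in
theorem isMaximalIn_singer11 (hσ : IsBar q σ) {K : Subalgebra F (Matrix (Fin 11) (Fin 11) F)}
    (hK : Geo.IsFieldSubalgebra 11 K) (ha : Geo.IsAdjointClosedFor (hermForm 11 F q) K) :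
    Geo.IsMaximalIn (GU 11 F q ⊓ Geo.specialLinear (Fin 11) F)
      (Geo.subalgebraNormalizer K ⊓ (GU 11 F q ⊓ Geo.specialLinear (Fin 11) F)) := by
  have := hσ.finite
  let _ := (Asch.isField_of_isFieldSubalgebra hK).toField
  have h2 := hK.finrank_eq
  rw [Linear.subalgebraNormalizer_eq hK]
  refine hσ.isMaximalIn_of (H' := semiU F K _) (fun g _ => Iff.rfl)
    (hσ.isHerm.not_SUG_le_semiU (by simp) (by omega)) fun X h4 h5 => ?_
  refine or_iff_not_imp_left.2 fun h6 => ?_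
  obtain ⟨s, e, hs, e1, e2⟩ := exists_model (K := K) (V := Fin 11 → F) hσ.isHerm hσ
    (by rw [h2]; norm_num) (by omega) (by simp [h2]) fun κ => by
      obtain ⟨κ', hκ', e⟩ := ha κ κ.2
      refine ⟨⟨κ', hκ'⟩, fun u v => ?_⟩
      have := e u v
      rw [hσ.hermForm_eq, hσ.hermForm_eq] at this
      rw [← hσ.isHerm.symm, ← hσ.isHerm.symm _ u]
      exact congrArg σ this
  have := Fintype.ofFinite F
  have := Fintype.ofFinite K
  obtain ⟨d, τ, hn⟩ := exists_nm (n := 11) (by norm_num) (by norm_num) hσ.two_le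
  let B : K →ₛₗ[σ] K →ₗ[F] F := ((stdForm σ (Fin 11)).compl₂ e.toLinearMap).comp e.toLinearMap
  have M : Md q 11 d τ s B := ⟨hn, hσ, by rwa [h2] at hs, h2, e2⟩
  let ρ : (K ≃ₗ[F] K) →* ((Fin 11 → F) ≃ₗ[F] (Fin 11 → F)) :=
    MonoidHom.mk' (fun g => e.symm ≪≫ₗ g ≪≫ₗ e) fun a b => LinearEquiv.ext fun v => by simp
  have r1 : ∀ g v, ρ g (e v) = e (g v) := fun g v => by simp [ρ]
  have r2 : ∀ g, ρ g ∈ SUG (stdForm σ (Fin 11)) ↔ g ∈ SUG B := fun g => by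
    rw [mem_SUG', mem_SUG', show ((ρ g : _ ≃ₗ[F] _) : (Fin 11 → F) →ₗ[F] (Fin 11 → F)) =
      e ∘ₗ (g : K →ₗ[F] K) ∘ₗ e.symm from rfl, LinearMap.det_conj, mem_UG, mem_UG, e.surjective.forall₂]
    simp only [r1]
    rfl
  have r3 : ∀ g ∈ Nn F K, ρ g ∈ semiU F K (Fin 11 → F) := fun g hg => by
    obtain ⟨b, j, hb⟩ := M.mem_Nn.1 hg
    refine mem_semiU_of_forall fun k => ⟨k ^ (q ^ 2) ^ j, fun x => ?_⟩
    obtain ⟨v, rfl⟩ := e.surjective x
    rw [← e1, r1, r1, ← e1, hb, hb, mul_pow, mul_left_comm]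
  have r4 : ∀ g, ρ (e ≪≫ₗ g ≪≫ₗ e.symm) = g := fun g => LinearEquiv.ext fun v => by simp [ρ]
  have := singer M (X := X.comap ρ) (fun g hg => h4 ⟨r3 g hg.1, (r2 g).2 hg.2⟩)
    (fun g hg => (r2 g).1 (h5 hg)) fun h => h6 fun g hg => r4 g ▸ r3 _ (h (by
      rw [Subgroup.mem_comap, r4]; exact hg))
  exact fun g hg => r4 g ▸ this ((r2 _).1 (by rw [r4]; exact hg))

end Cfsg.Lib.US11
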