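import Cfsg.Agent.Lib.US11.Def
import Cfsg.Agent.Lib.US11.Aff
import Cfsg.Agent.Lib.PGroup.Basic

/-!
# Translation-free `p`-groups on an affine space of dimension five
-/

set_option autoImplicit false

namespace Cfsg.Lib.US11

open Module Cfsg.Lib.Unitary Cfsg.Lib.US7

/-- A `P`-normal subgroup `N ≤ P` not inside the `P`-normal subgroup `A` has an element outside `A`
central modulo `A` (the image of `N` in `P ⧸ A` meets the centre; or `P` fixes a non-trivial coset in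
`N ⧸ A.subgroupOf N`). -/
theorem cent {H : Type*} [Group H] [Finite H] {p : ℕ} (hp : p.Prime) {P N A : Subgroup H}
    (hP : IsPGroup p P) (hN : N ≤ P) (nN : ∀ g ∈ P, ∀ x ∈ N, g * x * g⁻¹ ∈ N)
    (nA : ∀ g ∈ P, ∀ x ∈ A, g * x * g⁻¹ ∈ A) (n : ¬ N ≤ A) :
    ∃ z ∈ N, z ∉ A ∧ ∀ g ∈ P, z * g * z⁻¹ * g⁻¹ ∈ A := by
  have := Fact.mk hp
  have : (A.subgroupOf P).Normal := ⟨fun x hx g => nA g g.2 x hx⟩
  have nN' : (N.subgroupOf P).Normal := ⟨fun x hx g => nN g g.2 x hx⟩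
  have := (hP.to_quotient (A.subgroupOf P)).isNilpotent
  have := nN'.map (QuotientGroup.mk' (A.subgroupOf P)) (QuotientGroup.mk'_surjective _)
  obtain ⟨⟨_, ⟨z, hz, rfl⟩, zc⟩, z1⟩ := Subgroup.ne_bot_iff_exists_ne_one.1 (PGroup.normal_inf_center_ne_bot
    ((N.subgroupOf P).map (QuotientGroup.mk' (A.subgroupOf P))) fun e => n fun x hx =>
      (QuotientGroup.eq_one_iff (N := A.subgroupOf P) ⟨x, hN hx⟩).1 (e.le ⟨⟨x, hN hx⟩, hx, rfl⟩))
  refine ⟨z, hz, fun h => z1 (Subtype.ext ((QuotientGroup.eq_one_iff z).2 h)), fun g hg =>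
    (QuotientGroup.eq_one_iff (N := A.subgroupOf P) (z * ⟨g, hg⟩ * z⁻¹ * ⟨g, hg⟩⁻¹)).1 ?_⟩
  have := Subgroup.mem_center_iff.1 zc ((⟨g, hg⟩ : P) : P ⧸ A.subgroupOf P)
  rw [QuotientGroup.mk'_apply] at this
  rw [QuotientGroup.mk_mul, QuotientGroup.mk_mul, QuotientGroup.mk_mul, ← this, QuotientGroup.mk_inv,
    QuotientGroup.mk_inv, mul_inv_cancel_right, mul_inv_cancel]

variable {F V : Type*} [Field F] [AddCommGroup V] [Module F V] [Finite V] {σ : F →+* F} {q p m : ℕ}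
  {B : V →ₛₗ[σ] V →ₗ[F] F} {P : Subgroup (V ≃ₗ[F] V)} {U : Submodule F V} {w : V}

/-- `PL.step` by induction on `j ≤ m`, then `PL.trans` -/
theorem exists_fr (h : PL B q p m P) : ∃ U w, Fr B m P U w := by
  have k : ∀ j ≤ m, ∃ U : Submodule F V, U ≤ perp B U ∧ (∀ g ∈ P, ∀ u ∈ U, g u ∈ U) ∧ finrank F U = j := by
    intro j
    induction j with
    | zero => exact fun _ => ⟨⊥, bot_le, by simp, finrank_bot _ _⟩
    | succ j ih =>
      intro hj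
      obtain ⟨U, a, b, c⟩ := ih (by omega)
      obtain ⟨x, -, -, -, d, e, f⟩ := h.step a b (by omega)
      exact ⟨_, d, e, by omega⟩
  obtain ⟨U, a, b, c⟩ := k m le_rfl
  obtain ⟨w, w1, w2, w3, w4, w5⟩ := h.trans a b c
  exact ⟨U, w, a, b, c, w1, w2, w3, w4, w5⟩

omit [Finite V] in
theorem loc_sup {Y : Submodule F V} {x v : V} : v ∈ Y ⊔ F ∙ x ↔ ∃ y ∈ Y, ∃ c : F, y + c • x = v := by
  simp [Submodule.mem_sup, Submodule.mem_span_singleton]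

omit [Finite V] in
theorem loc_li {Y : Submodule F V} {x y y' : V} {c c' : F} (n : x ∉ Y) (hy : y ∈ Y) (hy' : y' ∈ Y)
    (e : y + c • x = y' + c' • x) : y = y' ∧ c = c' := by
  obtain rfl : c = c' := by_contra fun h => n (by
    have := Y.smul_mem (c - c')⁻¹ (sub_mem hy' hy)
    rwa [show y' - y = (c - c') • x by linear_combination (norm := module) -e, inv_smul_smul₀ (sub_ne_zero.2 h)] at this)
  exact ⟨add_right_cancel e, rfl⟩

omit [Finite V] in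
theorem Fr.kv_aff (f : Fr B m P U w) {Y : Submodule F V} {iY : ∀ g ∈ P, ∀ y ∈ Y, g y ∈ Y} {g : V ≃ₗ[F] V}
    (hg : g ∈ Kv P (insert w U) Y iY) {v : V} (hv : v - w ∈ U) : g v - v ∈ Y := by
  have := add_mem (hg.2 w (.inl rfl)) (hg.2 _ (.inr hv))
  rw [map_sub] at this
  convert this using 1
  abel

omit [Finite V] in
theorem Fr.kv_norm (f : Fr B m P U w) {Y : Submodule F V} {iY : ∀ g ∈ P, ∀ y ∈ Y, g y ∈ Y} :
    ∀ g ∈ P, ∀ x ∈ Kv P (insert w U) Y iY, g * x * g⁻¹ ∈ Kv P (insert w U) Y iY := fun g hg x hx =>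
  ⟨mul_mem (mul_mem hg hx.1) (inv_mem hg), fun u hu => by
    have : x (g⁻¹ u) - g⁻¹ u ∈ Y := hu.elim (fun e => e ▸ f.kv_aff hx (f.fix _ (inv_mem hg)))
      fun hu => hx.2 _ (.inr (f.inv _ (inv_mem hg) u hu))
    have := iY g hg _ this
    rwa [map_sub, show g (g⁻¹ u) = u from g.apply_symm_apply u] at this⟩

omit [Finite V] in
theorem Fr.kv_norm' (f : Fr B m P U w) {Y : Submodule F V} {iY : ∀ g ∈ P, ∀ y ∈ Y, g y ∈ Y} :
    ∀ g ∈ P, ∀ x ∈ Kv P U Y iY, g * x * g⁻¹ ∈ Kv P U Y iY := fun g hg x hx =>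
  ⟨mul_mem (mul_mem hg hx.1) (inv_mem hg), fun u hu => by
    have := iY g hg _ (hx.2 _ (f.inv _ (inv_mem hg) u hu))
    rwa [map_sub, show g (g⁻¹ u) = u from g.apply_symm_apply u] at this⟩

/-- `N = Kv P (insert w U) (Y ⊔ F ∙ e)`, `A = Kv P (insert w U) Y` are normal in `P` (`g⁻¹ w ∈ w + U`).
If `N ≰ A` take `z` from `cent`.  For `u ∈ U`, `g w = w + u`; `z g = k (g z)` with `k ∈ A`, and `g z w ∈ w + U`,
so `z g w ≡ g z w mod Y`: `z w + z u ≡ w + u + g (z w - w) ≡ w + u + (z w - w)` (`z w - w ∈ Y + F e` is fixed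
modulo `Y`).  Hence `z u ≡ u` on `U`, and `tf` gives `z ∈ A`. -/
theorem Fr.f3 (h : PL B q p m P) (f : Fr B m P U w) {Y : Submodule F V} (hY : Y ≤ U)
    (iY : ∀ g ∈ P, ∀ y ∈ Y, g y ∈ Y) {e : V} (eU : e ∈ U) (fe : ∀ g ∈ P, g e - e ∈ Y)
    (tf : ∀ t ∈ P, (∀ u ∈ U, t u - u ∈ Y) → t w - w ∈ Y) {g : V ≃ₗ[F] V} (hg : g ∈ P)
    (h1 : ∀ u ∈ U, g u - u ∈ Y ⊔ F ∙ e) (h2 : g w - w ∈ Y ⊔ F ∙ e) :
    (∀ u ∈ U, g u - u ∈ Y) ∧ g w - w ∈ Y := by
  have := h.bar.finite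
  have := finite_linearEquiv (F := F) (V := V)
  have fx : ∀ g ∈ P, ∀ y ∈ Y ⊔ F ∙ e, g y - y ∈ Y := fun g hg y' hy' => by
    obtain ⟨y, hy, c, rfl⟩ := loc_sup.1 hy'
    rw [map_add, map_smul, add_sub_add_comm, ← smul_sub]
    exact add_mem (sub_mem (iY g hg y hy) hy) (Y.smul_mem _ (fe g hg))
  have iZ : ∀ g ∈ P, ∀ y ∈ Y ⊔ F ∙ e, g y ∈ Y ⊔ F ∙ e := fun g hg y hy => by
    simpa using add_mem (Submodule.mem_sup_left (fx g hg y hy)) hy
  by_contra n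
  obtain ⟨z, hz, zA, zc⟩ := cent h.prime h.pg (N := Kv P (insert w U) _ iZ) (A := Kv P (insert w U) Y iY)
    (fun _ hx => hx.1) f.kv_norm f.kv_norm fun l =>
      have := l ⟨hg, Set.forall_mem_insert.2 ⟨h2, h1⟩⟩
      n ⟨fun u hu => this.2 u (.inr hu), this.2 w (.inl rfl)⟩
  have k : ∀ u ∈ U, z u - u ∈ Y := fun u hu => by
    obtain ⟨g, hg, e⟩ := f.tr u hu
    have a := f.kv_aff (zc g hg) (f.fix _ (mul_mem hg hz.1))
    rw [← LinearEquiv.mul_apply, show z * g * z⁻¹ * g⁻¹ * (g * z) = z * g by group, LinearEquiv.mul_apply,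
      LinearEquiv.mul_apply, e, map_add] at a
    have b := fx g hg _ (hz.2 w (.inl rfl))
    rw [map_sub, e] at b
    convert add_mem a b using 1
    abel
  exact zA ⟨hz.1, Set.forall_mem_insert.2 ⟨tf z hz.1 k, k⟩⟩

/-- `N = Kv P U (F ∙ e)`, `A = Kv P (insert w U) ⊥`; `z` from `cent`, `z u - u = ψ₀ u • e` on `U` with `ψ₀`
linear (extend to `V`: `LinearMap.exists_extend`, or `ψ = φ ∘ (z - 1)` for a functional `φ` with `φ e = 1`),
`ψ₀ ≠ 0` on `U` by `tf`; `a = z w - w`.  `z g` and `g z` agree on `w + U` and on `U`, which gives `fa`, `fp`. -/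
theorem Fr.st_of (h : PL B q p m P) (f : Fr B m P U w) (tf : TF P U w) {e : V} (eU : e ∈ U) (e0 : e ≠ 0)
    (fe : ∀ g ∈ P, g e = e) {t : V ≃ₗ[F] V} (ht : t ∈ P) (h1 : ∀ u ∈ U, t u - u ∈ F ∙ e)
    (h2 : ¬ ∀ u ∈ U, t u = u) : ∃ a ψ, St P U w e a ψ := by
  have := h.bar.finite
  have := finite_linearEquiv (F := F) (V := V)
  have iE : ∀ g ∈ P, ∀ y ∈ F ∙ e, g y ∈ F ∙ e := fun g hg y hy => by
    obtain ⟨c, rfl⟩ := Submodule.mem_span_singleton.1 hy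
    rwa [map_smul, fe g hg]
  obtain ⟨z, hz, zA, zc⟩ := cent h.prime h.pg (N := Kv P U _ iE) (A := Kv P (insert w U) ⊥ (by simp))
    (fun _ hx => hx.1) f.kv_norm' f.kv_norm fun l => h2 fun u hu => sub_eq_zero.1 ((l ⟨ht, h1⟩).2 u (.inr hu))
  obtain ⟨φ, hφ⟩ : ∃ φ : V →ₗ[F] F, φ e = 1 := by
    obtain ⟨φ, hφ⟩ := not_forall.1 (mt (Module.forall_dual_apply_eq_zero_iff F e).1 e0)
    exact ⟨(φ e)⁻¹ • φ, inv_mul_cancel₀ hφ⟩
  obtain ⟨ψ, hψ⟩ : ∃ ψ : V →ₗ[F] F, ∀ u ∈ U, z u = u + ψ u • e := ⟨φ ∘ₗ ((z : V →ₗ[F] V) - LinearMap.id), fun u hu => by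
    obtain ⟨c, hc⟩ := Submodule.mem_span_singleton.1 (hz.2 u hu)
    change z u = u + φ (z u - u) • e
    rw [← hc, map_smul, hφ, smul_eq_mul, mul_one, hc, add_sub_cancel]⟩
  have cm : ∀ g ∈ P, ∀ v, (g * z) v ∈ U ∨ (g * z) v - w ∈ U → z (g v) = g (z v) := fun g hg v hv => by
    have a : (z * g * z⁻¹ * g⁻¹) ((g * z) v) - (g * z) v = 0 :=
      hv.elim (fun hv => (zc g hg).2 _ (.inr hv)) (f.kv_aff (zc g hg))
    rwa [← LinearEquiv.mul_apply, show z * g * z⁻¹ * g⁻¹ * (g * z) = z * g by group, sub_eq_zero] at a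
  refine ⟨z w - w, ψ, eU, e0, f.fix z hz.1, fe, fun g hg u hu => ?_, ?_, fun g hg => ?_⟩
  · have := cm g hg u (.inl (f.inv _ (mul_mem hg hz.1) u hu))
    rw [hψ _ (f.inv g hg u hu), hψ u hu, map_add, map_smul, fe g hg] at this
    exact smul_left_injective F e0 (add_left_cancel this)
  · by_contra! n
    have k : ∀ u ∈ U, z u = u := fun u hu => by
      rw [hψ u hu, show ψ u = 0 from by_contra fun r => n _ (U.smul_mem (ψ u)⁻¹ hu) (by
        rw [map_smul, smul_eq_mul, inv_mul_cancel₀ r]), zero_smul, add_zero]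
    exact zA ⟨hz.1, Set.forall_mem_insert.2 ⟨sub_eq_zero.2 (tf z hz.1 k), fun u hu => sub_eq_zero.2 (k u hu)⟩⟩
  · have a := cm g hg w (.inr (f.fix _ (mul_mem hg hz.1)))
    have b := hψ _ (f.fix g hg)
    rw [map_sub z] at b
    rw [map_sub g]
    linear_combination (norm := module) b - a

/-- Take a flag `e, c, y₁, y₂, y₃` of `U` (`PL.step` five times and `PL.uniq`, as in `PL.transl`).  If `st_of` does
not apply, every `t ∈ P` trivial on `U / F e` is trivial on `U`, so fixes `w` (`tf`).  Apply `aff` to the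
coordinates modulo `e` with `A = {g ∈ P | g` trivial on `U` and `g w = w}`: `hs` is the remark just made,
`ha` is `f3` with `Y = F ∙ e` and the vector `c`, followed by the remark.  But `A` fixes `w`, whose orbit has
`|U| = |F|^5` elements, so `|F|^5 ≤ |P : A|`. -/
theorem Fr.exists_st (h : PL B q p 5 P) (f : Fr B 5 P U w) (tf : TF P U w) : ∃ e a ψ, St P U w e a ψ := by
  have := h.bar.finite
  have := Module.Finite.of_finite (R := F) (M := V)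
  have := finite_linearEquiv (F := F) (V := V)
  obtain ⟨e, -, n₁, f₁, u₁, v₁, d₁⟩ := h.step (U := ⊥) bot_le (by simp) (by simp)
  rw [finrank_bot] at d₁
  obtain ⟨c, -, n₂, f₂, u₂, v₂, d₂⟩ := h.step u₁ v₁ (by omega)
  obtain ⟨y₁, -, n₃, f₃, u₃, v₃, d₃⟩ := h.step u₂ v₂ (by omega)
  obtain ⟨y₂, -, n₄, f₄, u₄, v₄, d₄⟩ := h.step u₃ v₃ (by omega)
  obtain ⟨y₃, -, n₅, f₅, u₅, v₅, d₅⟩ := h.step u₄ v₄ (by omega)
  have hU := h.uniq u₅ f.iso v₅ f.inv (by omega) f.rank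
  simp only [bot_sup_eq, Submodule.mem_bot, sub_eq_zero] at n₁ f₁ n₂ f₂ n₃ f₃ n₄ f₄ n₅ f₅ v₁ hU
  have m2 : ∀ {v}, v ∈ (F ∙ e) ⊔ F ∙ c ↔ ∃ x y : F, x • e + y • c = v := by
    simp [loc_sup, Submodule.mem_span_singleton]
  have m3 : ∀ {v}, v ∈ (F ∙ e) ⊔ (F ∙ c) ⊔ F ∙ y₁ ↔ ∃ x y z : F, x • e + y • c + z • y₁ = v := fun {v} =>
    loc_sup.trans ⟨fun ⟨_, hy, z, r⟩ => let ⟨x, y, r'⟩ := m2.1 hy; ⟨x, y, z, r' ▸ r⟩,
      fun ⟨x, y, z, r⟩ => ⟨_, m2.2 ⟨x, y, rfl⟩, z, r⟩⟩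
  have m4 : ∀ {v}, v ∈ (F ∙ e) ⊔ (F ∙ c) ⊔ (F ∙ y₁) ⊔ F ∙ y₂ ↔
      ∃ x y z s : F, x • e + y • c + z • y₁ + s • y₂ = v := fun {v} =>
    loc_sup.trans ⟨fun ⟨_, hy, s, r⟩ => let ⟨x, y, z, r'⟩ := m3.1 hy; ⟨x, y, z, s, r' ▸ r⟩,
      fun ⟨x, y, z, s, r⟩ => ⟨_, m3.2 ⟨x, y, z, rfl⟩, s, r⟩⟩
  have m5 : ∀ {v}, v ∈ U ↔ ∃ x y z s t : F, x • e + y • c + z • y₁ + s • y₂ + t • y₃ = v := fun {v} =>
    hU ▸ loc_sup.trans ⟨fun ⟨_, hy, t, r⟩ => let ⟨x, y, z, s, r'⟩ := m4.1 hy; ⟨x, y, z, s, t, r' ▸ r⟩,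
      fun ⟨x, y, z, s, t, r⟩ => ⟨_, m4.2 ⟨x, y, z, s, rfl⟩, t, r⟩⟩
  have li : ∀ {x y z s t x' y' z' s' t' : F}, x • e + y • c + z • y₁ + s • y₂ + t • y₃ =
      x' • e + y' • c + z' • y₁ + s' • y₂ + t' • y₃ → y = y' ∧ z = z' ∧ s = s' ∧ t = t' := fun r => by
    obtain ⟨r, a5⟩ := loc_li n₅ (m4.2 ⟨_, _, _, _, rfl⟩) (m4.2 ⟨_, _, _, _, rfl⟩) r
    obtain ⟨r, a4⟩ := loc_li n₄ (m3.2 ⟨_, _, _, rfl⟩) (m3.2 ⟨_, _, _, rfl⟩) r
    obtain ⟨r, a3⟩ := loc_li n₃ (m2.2 ⟨_, _, rfl⟩) (m2.2 ⟨_, _, rfl⟩) r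
    exact ⟨(loc_li n₂ (Submodule.mem_span_singleton.2 ⟨_, rfl⟩) (Submodule.mem_span_singleton.2 ⟨_, rfl⟩) r).2,
      a3, a4, a5⟩
  have eU : e ∈ U := m5.2 ⟨1, 0, 0, 0, 0, by simp⟩
  by_contra! n
  have R : ∀ t ∈ P, (∀ u ∈ U, t u - u ∈ F ∙ e) → t ∈ Kv P (insert w U) ⊥ (by simp) := fun t ht h1 => by
    have k : ∀ u ∈ U, t u = u := by_contra fun h2 =>
      let ⟨a, ψ, s⟩ := f.st_of h tf eU n₁ f₁ ht h1 h2; n e a ψ s
    exact ⟨ht, Set.forall_mem_insert.2 ⟨sub_eq_zero.2 (tf t ht k), fun u hu => sub_eq_zero.2 (k u hu)⟩⟩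
  choose x0 h0 using fun g : P => Submodule.mem_span_singleton.1 (f₂ g g.2)
  choose x1 s1 h1 using fun g : P => m2.1 (f₃ g g.2)
  choose x2 s2 l h2 using fun g : P => m3.1 (f₄ g g.2)
  choose x3 s3 nn mm h3 using fun g : P => m4.1 (f₅ g g.2)
  choose x4 d a1 a2 a3 h4 using fun g : P => m5.1 (f.fix g g.2)
  have f₁' : ∀ g : P, g.1 e = e := fun g => f₁ g g.2
  replace h0 := fun g => sub_eq_iff_eq_add'.1 (h0 g).symm
  replace h1 := fun g => sub_eq_iff_eq_add'.1 (h1 g).symm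
  replace h2 := fun g => sub_eq_iff_eq_add'.1 (h2 g).symm
  replace h3 := fun g => sub_eq_iff_eq_add'.1 (h3 g).symm
  replace h4 := fun g => sub_eq_iff_eq_add'.1 (h4 g).symm
  have k1 : ∀ g k : P, s1 (g * k) = s1 g + s1 k := fun g k => (li (z := 0) (s := 0) (t := 0) (z' := 0) (s' := 0) (t' := 0)
    (x := x1 (g * k)) (x' := x1 g + x1 k + x0 g * s1 k) (by
    have := h1 (g * k)
    simp only [Subgroup.coe_mul, LinearEquiv.mul_apply, h1 k, map_add, map_smul, h0 g, h1 g, f₁'] at this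
    linear_combination (norm := module) -this)).1
  have k2 : ∀ g k : P, s2 (g * k) = s2 g + s2 k + s1 g * l k ∧ l (g * k) = l g + l k ∧ (0 : F) = 0 ∧ (0 : F) = 0 :=
    fun g k => li (x := x2 (g * k)) (x' := x2 g + x2 k + x0 g * s2 k + x1 g * l k) (by
    have := h2 (g * k)
    simp only [Subgroup.coe_mul, LinearEquiv.mul_apply, h2 k, map_add, map_smul, h0 g, h1 g, h2 g, f₁'] at this
    linear_combination (norm := module) -this)
  have k3 : ∀ g k : P, s3 (g * k) = s3 g + s3 k + s1 g * nn k + s2 g * mm k ∧ nn (g * k) = nn g + nn k + l g * mm k ∧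
      mm (g * k) = mm g + mm k ∧ (0 : F) = 0 :=
    fun g k => li (x := x3 (g * k)) (x' := x3 g + x3 k + x0 g * s3 k + x1 g * nn k + x2 g * mm k) (by
    have := h3 (g * k)
    simp only [Subgroup.coe_mul, LinearEquiv.mul_apply, h3 k, map_add, map_smul, h0 g, h1 g, h2 g, h3 g, f₁'] at this
    linear_combination (norm := module) -this)
  have k4 : ∀ g k : P, d (g * k) = d g + d k + s1 g * a1 k + s2 g * a2 k + s3 g * a3 k ∧
      a1 (g * k) = a1 g + a1 k + l g * a2 k + nn g * a3 k ∧ a2 (g * k) = a2 g + a2 k + mm g * a3 k ∧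
      a3 (g * k) = a3 g + a3 k :=
    fun g k => li (x := x4 (g * k)) (x' := x4 g + x4 k + x0 g * d k + x1 g * a1 k + x2 g * a2 k + x3 g * a3 k) (by
    have := h4 (g * k)
    simp only [Subgroup.coe_mul, LinearEquiv.mul_apply, h4 k, map_add, map_smul, h0 g, h1 g, h2 g, h3 g, h4 g, f₁'] at this
    linear_combination (norm := module) -this)
  have key := aff ((Kv P (insert w U) ⊥ (by simp)).subgroupOf P) l mm nn a1 a2 a3 s1 s2 s3 d (fun g k => (k2 g k).2.1)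
    (fun g k => (k3 g k).2.2.1) (fun g k => (k3 g k).2.1) (fun g k => (k4 g k).2.2.2) (fun g k => (k4 g k).2.2.1)
    (fun g k => (k4 g k).2.1) k1 (fun g k => (k2 g k).1) (fun g k => (k3 g k).1) (fun g k => (k4 g k).1)
    (fun g b1 b2 b3 b4 b5 b6 => R g g.2 (f.f3 h (Y := F ∙ e) (e := c) ((Submodule.span_singleton_le_iff_mem _ _).2 eU) v₁
      (m5.2 ⟨0, 1, 0, 0, 0, by simp⟩) f₂ (fun t ht r => by
        rw [Submodule.mem_bot F |>.1 ((R t ht r).2 w (.inl rfl))]; exact zero_mem _) g.2 (fun u hu => by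
        obtain ⟨x, y, z, s, t, rfl⟩ := m5.1 hu
        refine m2.2 ⟨y * x0 g + z * x1 g + s * x2 g + t * x3 g, z * s1 g + s * s2 g + t * s3 g, ?_⟩
        simp only [map_add, map_smul, h0 g, h1 g, h2 g, h3 g, f₁', b1, b2, b3]
        module) (m2.2 ⟨x4 g, d g, by rw [h4 g, b4, b5, b6]; module⟩)).1)
    (fun g b1 b2 b3 b4 b5 b6 => R g g.2 fun u hu => by
      obtain ⟨x, y, z, s, t, rfl⟩ := m5.1 hu
      refine Submodule.mem_span_singleton.2 ⟨y * x0 g + z * x1 g + s * x2 g + t * x3 g, ?_⟩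
      simp only [map_add, map_smul, h0 g, h1 g, h2 g, h3 g, f₁', b1, b2, b3, b4, b5, b6]
      module)
    fun g hg => by
      have z : ∀ v ∈ insert w (U : Set V), g.1 v = v := fun v hv => sub_eq_zero.1 (hg.2 v hv)
      have b1 := li (x := x1 g) (y := s1 g) (z := 0) (s := 0) (t := 0) (x' := 0) (y' := 0) (z' := 0) (s' := 0) (t' := 0) (by
        linear_combination (norm := module) z y₁ (.inr (m5.2 ⟨0, 0, 1, 0, 0, by simp⟩)) - h1 g)
      have b2 := li (x := x2 g) (y := s2 g) (z := l g) (s := 0) (t := 0) (x' := 0) (y' := 0) (z' := 0) (s' := 0) (t' := 0) (by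
        linear_combination (norm := module) z y₂ (.inr (m5.2 ⟨0, 0, 0, 1, 0, by simp⟩)) - h2 g)
      have b3 := li (x := x3 g) (y := s3 g) (z := nn g) (s := mm g) (t := 0) (x' := 0) (y' := 0) (z' := 0) (s' := 0) (t' := 0) (by
        linear_combination (norm := module) z y₃ (.inr (m5.2 ⟨0, 0, 0, 0, 1, by simp⟩)) - h3 g)
      have b4 := li (x := x4 g) (y := d g) (z := a1 g) (s := a2 g) (t := a3 g) (x' := 0) (y' := 0) (z' := 0) (s' := 0) (t' := 0) (by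
        linear_combination (norm := module) z w (.inl rfl) - h4 g)
      exact ⟨⟨b2.2.1, b3.2.2.1, b3.2.1⟩, b4.2, ⟨b1.1, b2.1, b3.1⟩, b4.1⟩
  choose s hs es using fun u : U => f.tr u u.2
  have := Nat.card_le_card_of_injective (fun u : U => ((⟨s u, hs u⟩ : P) : P ⧸ (Kv P (insert w U) ⊥ (by simp)).subgroupOf P))
    fun u u' r => by
      have := sub_eq_zero.1 ((QuotientGroup.eq.1 r).2 w (.inl rfl))
      have : s u' w = s u w := (s u).symm_apply_eq.1 this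
      rw [es, es] at this
      exact Subtype.ext (add_left_cancel this).symm
  rw [Module.natCard_eq_pow_finrank (K := F), f.rank] at this
  exact key.not_ge this

end Cfsg.Lib.US11
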