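import Cfsg.Agent.Lib.US11.WP
import Cfsg.Agent.Lib.UW.L3
import Cfsg.Agent.Lib.UW.WE

/-! # The Weil package in characteristic two -/

set_option autoImplicit false
set_option linter.unusedSectionVars false

namespace Cfsg.Lib.US7

open Module Cfsg.Lib.Unitary Cfsg.Lib.CKS Cfsg.Lib.Char LinearMap

variable {F K : Type*} [Field F] [Fintype F] [Field K] [Fintype K] [Algebra F K] {σ : F →+* F}
  {q n d τ : ℕ} {s : K →+* K} {B : K →ₛₗ[σ] K →ₗ[F] F} {ε : AddChar F ℂ} {W : Type*}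
  [AddCommGroup W] [Module ℂ W] [FiniteDimensional ℂ W] {h : K → End ℂ W} {ρ : UG B →* End ℂ W}

namespace Md

theorem uw_dim (M : Md q n d τ s B) (D : UW.WQ B ε h ρ) : finrank ℂ W = q ^ n := by
  have := D.dim
  rw [Nat.card_eq_fintype_card, M.cardK, mul_comm, pow_mul] at this
  exact Nat.pow_left_injective two_ne_zero this

/-- `reg_sub` for `T = Sc (q^n + 1)` (`norm_sq`: non-trivial elements fix only `0`) gives
`θ t = - l t` for `t ≠ 1`.  `θ (fr t fr⁻¹) = θ t` gives `l (x ^ (q²)) = l x`, and `τ` is prime to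
`q² - 1`, so `l` is trivial on `A`; `ω₀ = l ∘ scl`. -/
theorem uw_om (M : Md q n d τ s B) (D : UW.WQ B ε h ρ) : ∃ ω₀ : IrrCharacter (Mu q F),
    ∀ (c : Mu q F) (x : K ≃ₗ[F] K) (g : UG B), x ∈ Sc F K τ → g.1 = scl q F K c * x → g ≠ 1 →
      trace ℂ W (ρ g) = -ω₀.1 c := by
  have := md_fin (F := F) (K := K)
  have := Fintype.ofFinite (Sc F K (q ^ n + 1))
  obtain ⟨l, hl⟩ := reg_sub (G := Sc F K (q ^ n + 1)) (fun x y => Subtype.ext (Sc_comm x.2 y.2))
    (th_char (ρ := ρ) M.Sc_le_UG) (by rw [th, map_one, trace_one, M.uw_dim D, M.card_T]; simp) fun t t1 => by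
      have e := D.norm_sq M.herm (Subgroup.inclusion M.Sc_le_UG t)
      rw [show Nat.card {v : K // (Subgroup.inclusion M.Sc_le_UG t).1 v = v} = 1 from
        Nat.card_eq_one_iff_exists.2 ⟨⟨0, map_zero _⟩, fun x => Subtype.ext (by_contra fun x0 =>
          t1 (Subtype.ext (eq_one_of_mem_Sc t.2 x0 x.2)))⟩, Nat.cast_one] at e
      exact (pow_eq_one_iff_of_nonneg (norm_nonneg _) two_ne_zero).1 e
  have hZ : ∀ c, scl q F K c ∈ Sc F K (q ^ n + 1) := fun c =>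
    Sc_mono ((dvd_mul_left _ _).trans M.dvdAZ) (M.range_scl.le ⟨c, rfl⟩)
  have hA : Sc F K τ ≤ Sc F K (q ^ n + 1) := Sc_mono ((dvd_mul_right _ _).trans M.dvdAZ)
  have l1 : ∀ x (hx : x ∈ Sc F K τ), l ⟨x, hA hx⟩ = 1 := fun x hx => by
    by_cases x1 : x = 1
    · subst x1; exact map_one l
    have e : fr F K * x * (fr F K)⁻¹ = x ^ q ^ 2 := by
      obtain ⟨u, -, rfl⟩ := hx
      rw [md_conj (b := 1) (fun v => by rw [M.fr_apply, one_mul]), map_pow]
    have e1 := (th_char (ρ := ρ) le_rfl).isClassFunction ⟨x, M.Sc_le_UG (hA hx)⟩ ⟨_, M.fr_mem⟩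
    have e2 := hl ⟨x, hA hx⟩ fun e => x1 (congrArg Subtype.val e)
    have e3 := hl (⟨x, hA hx⟩ ^ q ^ 2) fun e' => x1 (conj_eq_one_iff.1 (e.trans (congrArg Subtype.val e')))
    rw [show th ρ M.Sc_le_UG (⟨x, hA hx⟩ ^ q ^ 2) = th ρ M.Sc_le_UG ⟨x, hA hx⟩ from
      (congrArg (fun g => trace ℂ W (ρ g)) (Subtype.ext e.symm)).trans e1, e2, neg_inj, Units.val_inj,
      map_pow] at e3
    refine (pow_eq_one_iff_of_coprime M.cop.1).1 ⟨?_, ?_⟩
    · rw [← map_pow, show (⟨x, hA hx⟩ : Sc F K (q ^ n + 1)) ^ τ = 1 from Subtype.ext (pow_of_mem_Sc hx), map_one]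
    · have := M.two
      rw [← Nat.sub_add_cancel (show 1 ≤ q ^ 2 from Nat.one_le_pow _ _ (by omega)), pow_succ] at e3
      exact left_eq_mul.1 (e3.trans (mul_comm _ _))
  refine ⟨⟨_, isIrrCharacter_hom (l.comp (sclG hZ))⟩, fun c x g hx e g1 => ?_⟩
  have e2 := hl (sclG hZ c * ⟨x, hA hx⟩) fun e' => g1 (Subtype.ext (e.trans (congrArg Subtype.val e')))
  rw [map_mul l, l1 x hx, mul_one] at e2
  exact (congrArg (fun g => trace ℂ W (ρ g)) (Subtype.ext e)).trans e2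

/-- the Weil package for `n ∣ q + 1`, `n < q`, in any characteristic -/
theorem wp_dvd (M : Md q n d τ s B) (hn : n ∣ q + 1) (hq : n < q) :
    ∃ (m : ℕ) (ρ : UG B →* End ℂ (Fin m → ℂ)) (ω₀ : IrrCharacter (Mu q F)), WP M ρ ω₀ := by
  obtain ⟨ε, m, h, ρ, D⟩ := UW.exists_wq M.bar M.herm
  obtain ⟨ω₀, hω⟩ := M.uw_om D
  have n7 := M.seven
  have S : UW.WT q n (d * τ) M.bar B ε h ρ ω₀ := ⟨D, M.herm, M.rank, M.odd, by omega, M.mul,
    fun c c1 => hω c 1 _ (one_mem _) (mul_one _).symm fun e =>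
      c1 (M.scl_inj ((congrArg Subtype.val e).trans (map_one _).symm))⟩
  refine ⟨m, ρ, ω₀, M.uw_dim D, hω, by rw [S.trace_Pj, if_pos rfl], fun {G} _ hG hZ hf => S.tr n7 (g := ⟨_, hf⟩)
    (Subtype.ext (M.fr_eq_one.2 dvd_rfl)) hn hq ?_⟩
  rintro ⟨c, e⟩
  have e1 : scl q F K c = fr F K := congrArg Subtype.val e
  have e2 := LinearEquiv.congr_fun e1 1
  rw [M.fr_apply, one_pow, scl_apply, Algebra.smul_def, mul_one, map_eq_one_iff _ (algebraMap F K).injective] at e2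
  rw [show c = 1 from Subtype.ext (Units.ext e2), map_one] at e1
  have := Nat.le_of_dvd one_pos (M.fr_eq_one.1 ((pow_one _).trans e1.symm))
  omega

end Md

/-- characteristic-free Weil data (`Lib/UW`) -/
theorem Md.wp_two (M : Md q 11 d τ s B) (h2 : (2 : F) = 0) (hn : 11 ∣ q + 1) :
    ∃ (m : ℕ) (ρ : UG B →* End ℂ (Fin m → ℂ)) (ω₀ : IrrCharacter (Mu q F)), WP M ρ ω₀ := by
  refine M.wp_dvd hn ?_
  obtain ⟨p, f, hp, hc, -, hq⟩ := exists_prime_pow_of_card M.cardF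
  obtain rfl : p = 2 := ((Nat.prime_dvd_prime_iff_eq hp Nat.prime_two).1
    ((CharP.cast_eq_zero_iff F p 2).1 (by exact_mod_cast h2)))
  have := Nat.le_of_dvd (Nat.succ_pos q) hn
  by_contra! c
  obtain rfl | rfl : q = 10 ∨ q = 11 := by omega
  · have : 5 ∣ 2 ^ f := hq ▸ by norm_num
    have := (Nat.prime_dvd_prime_iff_eq Nat.prime_five Nat.prime_two).1 (Nat.prime_five.dvd_of_dvd_pow this)
    omega
  · omega

end Cfsg.Lib.US7
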