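import Cfsg.Agent.Lib.US7.CA

/-! # What the Weil representation is used for -/

set_option autoImplicit false
set_option linter.unusedSectionVars false

namespace Cfsg.Lib.US7

open Module Cfsg.Lib.Unitary Cfsg.Lib.CKS Cfsg.Lib.Char LinearMap

variable {F K : Type*} [Field F] [Fintype F] [Field K] [Fintype K] [Algebra F K] {σ : F →+* F}
  {q n d τ : ℕ} {s : K →+* K} {B : K →ₛₗ[σ] K →ₗ[F] F}

/-- the Weil package -/
structure WP (M : Md q n d τ s B) {m : ℕ} (ρ : UG B →* End ℂ (Fin m → ℂ))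
    (ω₀ : IrrCharacter (Mu q F)) : Prop where
  dim : finrank ℂ (Fin m → ℂ) = q ^ n
  val : ∀ (c : Mu q F) (x : K ≃ₗ[F] K) (g : UG B), x ∈ Sc F K τ → g.1 = scl q F K c * x → g ≠ 1 →
    trace ℂ _ (ρ g) = -ω₀.1 c
  pj : trace ℂ _ (Pj M.bar ρ ω₀.1) = (d * τ : ℕ) - 1
  tr : ∀ {G : Subgroup (K ≃ₗ[F] K)} [Fintype G] {hG : G ≤ UG B} {hZ : ∀ c, scl q F K c ∈ G},
    fr F K ∈ G → ∀ {A : Subgroup G}, (∀ x ∈ A, ∀ v : K, v ≠ 0 → x.1 v = v → x = 1) → 1 < Nat.card A →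
    ∀ {m : ℕ}, Nat.card G = Nat.card A * m →
    Nat.Coprime (Nat.card A) (q * m * (q + 1) * (q ^ (n - 1) - 1)) →
    (∀ X : Subgroup G, X.Normal → A ≤ X → (sclG hZ).range ≤ X → X = ⊤) →
    IsIrrCharacter G (cp (sclG hZ) (th ρ hG) ω₀.1) →
    (∀ ω, ω ≠ ω₀ → IsIrrCharacter G (cp (sclG hZ) (th ρ hG) ω.1) ∨
      Spl A (cp (sclG hZ) (th ρ hG) ω.1)) → Tr B G

theorem Md.wp_odd (M : Md q n d τ s B) (h2 : (2 : F) ≠ 0) :
    ∃ (m : ℕ) (ρ : UG B →* End ℂ (Fin m → ℂ)) (ω₀ : IrrCharacter (Mu q F)), WP M ρ ω₀ := by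
  obtain ⟨ε, m, h, ρ, D⟩ := exists_wd M.bar M.herm h2
  obtain ⟨ω₀, hω⟩ := M.exists_om D
  have S : WS q n (d * τ) M.bar B ε h ρ ω₀ := ⟨D, M.herm, M.rank, M.odd, by have := M.seven; omega, h2, M.mul,
    fun c c1 => hω c 1 _ (one_mem _) (mul_one _).symm fun e =>
      c1 (M.scl_inj ((congrArg Subtype.val e).trans (map_one _).symm))⟩
  exact ⟨m, ρ, ω₀, M.ca_dim D, hω, by rw [S.trace_Pj, if_pos rfl], fun _ _ => S.tr M.seven⟩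

end Cfsg.Lib.US7
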